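import Cfsg.Agent.RootInvolutions.Twins99
import Cfsg.Agent.Involution.Dihedral
import Cfsg.Agent.Constrained.Basic

/-!
The group generated by the twins of `d` and an odd partner `x`, modulo its 2-core, is again of the
same kind, with one class and trivial 2-core.
-/

set_option autoImplicit false

namespace CfsgLib.RootInv99

open Cfsg CfsgLib.RootInv

universe u

variable {G : Type u} [Group G] [Finite G]

theorem exists_reduced_maps {D : Set G} (hD : IsOddTranspositionSet D) {d x : G} (hd : d ∈ D)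
    (hx : x ∈ oddPartners D d) :
    ∃ (S : Set (↥(Subgroup.closure (sameCommutingClass D d ∪ {x})) ⧸
        pCore 2 ↥(Subgroup.closure (sameCommutingClass D d ∪ {x})))) (d' x' : _),
      IsOddTranspositionSet S ∧ OneClass S ∧ d' ∈ S ∧ x' ∈ oddPartners S d' ∧
      Subgroup.closure (sameCommutingClass S d' ∪ {x'}) = ⊤ ∧
      pCore 2 (↥(Subgroup.closure (sameCommutingClass D d ∪ {x})) ⧸
        pCore 2 ↥(Subgroup.closure (sameCommutingClass D d ∪ {x}))) = ⊥ ∧
      (∀ u : ↥(Subgroup.closure (sameCommutingClass D d ∪ {x})), (u : G) = x →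
        QuotientGroup.mk' (pCore 2 _) u = x') ∧
      (∀ u : ↥(Subgroup.closure (sameCommutingClass D d ∪ {x})), (u : G) = d →
        QuotientGroup.mk' (pCore 2 _) u = d') ∧
      ∀ u : ↥(Subgroup.closure (sameCommutingClass D d ∪ {x})), (u : G) ∈ sameCommutingClass D d →
        QuotientGroup.mk' (pCore 2 _) u ∈ sameCommutingClass S d' := by
  classical
  haveI : Fact (Nat.Prime 2) := ⟨Nat.prime_two⟩
  set X := Subgroup.closure (sameCommutingClass D d ∪ {x}) with hX
  set π := QuotientGroup.mk' (pCore 2 ↥X) with hπ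
  have hxX : x ∈ X := Subgroup.subset_closure (Or.inr rfl)
  have hEX : ∀ e ∈ sameCommutingClass D d, e ∈ X := fun e he => Subgroup.subset_closure (Or.inl he)
  let xX : ↥X := ⟨x, hxX⟩
  let S₀ : Set ↥X := {h | ∃ g : ↥X, h = g * xX * g⁻¹}
  have hS₀D : ∀ h ∈ S₀, (h : G) ∈ D := by
    rintro _ ⟨g, rfl⟩
    exact hD.1.conj_mem x hx.1 g
  have hxS : xX ∈ S₀ := ⟨1, by simp⟩
  have hES : ∀ e (he : e ∈ sameCommutingClass D d), (⟨e, hEX e he⟩ : ↥X) ∈ S₀ := by
    intro e he
    have hxe := not_commute_twin hD hd hx he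
    have ho := (odd_or_commute hD hx.1 he.1).resolve_left hxe
    obtain ⟨g, hg, hge⟩ := Involution.conjugate_of_odd (hD.1.orderOf_eq x hx.1) (hD.1.orderOf_eq e he.1) ho
    have hgX : g ∈ X := by
      refine (Subgroup.closure_le X).mpr ?_ hg
      rintro u (rfl | rfl)
      · exact hxX
      · exact hEX u he
    exact ⟨⟨g, hgX⟩, Subtype.ext hge.symm⟩
  have hsq : ∀ h ∈ S₀, h * h = 1 := fun h hh => Subtype.ext (mul_self hD.1 (hS₀D h hh))
  -- commutation is preserved and reflected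
  have hodd : ∀ u ∈ S₀, ∀ v ∈ S₀, Commute u v ∨ Odd (orderOf (u * v)) := fun u hu v hv =>
    (odd_or_commute hD (hS₀D u hu) (hS₀D v hv)).imp (fun h => Subtype.ext h.eq)
      fun h => by rw [← Subgroup.orderOf_coe]; exact h
  have hker : ∀ g : ↥X, π g = 1 → Odd (orderOf g) → g = 1 := fun g hg ho => by
    obtain ⟨k, hk⟩ := LocalP.isPGroup_pCore (G := ↥X) (p := 2) ⟨g, (QuotientGroup.eq_one_iff g).mp hg⟩
    exact eq_one_of_two_pow_of_odd (congrArg Subtype.val hk) ho
  have hrefl : ∀ u ∈ S₀, ∀ v ∈ S₀, Commute (π u) (π v) → Commute u v := by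
    intro u hu v hv hc
    rcases hodd u hu v hv with h | ho
    · exact h
    have h2 : π (u * v * (u * v)) = 1 := by
      rw [map_mul, map_mul, mul_assoc, ← mul_assoc (π v), ← hc.eq, mul_assoc (π u), ← map_mul π v v,
        hsq v hv, map_one, mul_one, ← map_mul, hsq u hu, map_one]
    have h3 : u * v * (u * v) = 1 :=
      hker _ h2 (by rw [← pow_two]; exact ho.of_dvd_nat (orderOf_pow_dvd _))
    have h4 : u * v = 1 := eq_one_of_sq_of_odd h3 ho
    rw [eq_inv_of_mul_eq_one_left h4]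
    exact (Commute.refl v).inv_left
  let dX : ↥X := ⟨d, hEX d (mem_same_self hD hd)⟩
  have hdS : dX ∈ S₀ := hES d (mem_same_self hD hd)
  have hxd : ¬ Commute xX dX := fun h =>
    not_commute_twin hD hd hx (mem_same_self hD hd) (congrArg Subtype.val h.eq : (x * d : G) = d * x)
  have hne1 : ∀ h ∈ S₀, π h ≠ 1 := by
    rintro _ ⟨g, rfl⟩ h1
    have hx1 : π xX = 1 := by
      rw [map_mul, map_mul, map_inv, mul_inv_eq_one] at h1
      exact mul_left_cancel (h1.trans (mul_one _).symm)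
    refine hxd (hrefl xX hxS dX hdS ?_)
    rw [hx1]
    exact Commute.one_left _
  let S : Set (↥X ⧸ pCore 2 ↥X) := π '' S₀
  have hone : OneClass S := by
    rintro _ ⟨u, ⟨g, rfl⟩, rfl⟩ _ ⟨v, ⟨g', rfl⟩, rfl⟩
    refine ⟨π (g' * g⁻¹), ?_⟩
    simp only [← map_mul, ← map_inv]
    congr 1
    group
  have hgen0 : Subgroup.closure S₀ = ⊤ := by
    rw [eq_top_iff, ← Subgroup.closure_closure_coe_preimage (k := sameCommutingClass D d ∪ {x})]
    refine Subgroup.closure_mono ?_
    rintro ⟨u, hu⟩ (h | h)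
    · exact hES u h
    · simp only [Set.mem_singleton_iff] at h
      subst h
      exact hxS
  have hS : IsOddTranspositionSet S := by
    have hpair : ∀ u ∈ S₀, ∀ v ∈ S₀, π u * π v = π v * π u ∨ Odd (orderOf (π u * π v)) := by
      intro u hu v hv
      rcases hodd u hu v hv with h | h
      · exact Or.inl (h.map π).eq
      · exact Or.inr (by rw [← map_mul]; exact h.of_dvd_nat (orderOf_map_dvd π _))
    refine ⟨⟨?_, ?_, ?_, ?_⟩, ?_⟩
    · rintro _ ⟨h, hh, rfl⟩
      exact orderOf_eq_prime (by rw [← map_pow, pow_two, hsq h hh, map_one]) (hne1 h hh)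
    · rw [← MonoidHom.map_closure, hgen0, Subgroup.map_top_of_surjective _ (QuotientGroup.mk'_surjective _)]
    · rintro _ ⟨_, ⟨g, rfl⟩, rfl⟩ y
      obtain ⟨y, rfl⟩ := QuotientGroup.mk'_surjective _ y
      refine ⟨y * g * xX * (y * g)⁻¹, ⟨y * g, rfl⟩, ?_⟩
      simp only [map_mul, map_inv, hπ]
      group
    · rintro _ ⟨u, hu, rfl⟩ _ ⟨v, hv, rfl⟩
      exact (hpair u hu v hv).imp id Or.inl
    · rintro _ ⟨u, hu, rfl⟩ _ ⟨v, hv, rfl⟩ h4
      rcases hpair u hu v hv with h | h
      · have h2 : (π u * π v) ^ 2 = 1 := by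
          rw [(show Commute (π u) (π v) from h).mul_pow, ← map_pow, ← map_pow, pow_two, pow_two,
            hsq u hu, hsq v hv, map_one, one_mul]
        exact absurd (Nat.le_of_dvd two_pos (orderOf_dvd_of_pow_eq_one h2)) (by omega)
      · rw [h4] at h
        exact absurd h (by decide)
  have htwin : ∀ u : ↥X, (u : G) ∈ sameCommutingClass D d → π u ∈ sameCommutingClass S (π dX) := by
    rintro ⟨u, hu⟩ h
    refine ⟨⟨_, hES u h, rfl⟩, Set.ext fun w => ?_⟩
    constructor <;> rintro ⟨⟨w, hw, rfl⟩, hc⟩ <;> refine ⟨⟨w, hw, rfl⟩, ?_⟩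
    · have h1 := congrArg Subtype.val (hrefl w hw dX hdS hc).eq
      exact ((show Commute w (⟨u, hu⟩ : ↥X) from
        Subtype.ext ((same_commute_iff h (hS₀D w hw)).mp h1).eq).map π).eq
    · have h1 := congrArg Subtype.val (hrefl w hw ⟨u, hu⟩ (hES u h) hc).eq
      exact ((show Commute w dX from
        Subtype.ext ((same_commute_iff h (hS₀D w hw)).mpr h1).eq).map π).eq
  refine ⟨S, π dX, π xX, hS, hone, ⟨dX, hdS, rfl⟩, ⟨⟨xX, hxS, rfl⟩, ?_, ?_⟩, ?_,
    Constrained.pCore_quotient_pCore, fun u hu => congrArg π (Subtype.ext hu),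
    fun u hu => congrArg π (Subtype.ext hu), htwin⟩
  · intro h
    exact hxd (hrefl xX hxS dX hdS (by rw [h]))
  · rw [← map_mul]
    refine Odd.of_dvd_nat ?_ (orderOf_map_dvd π _)
    rw [← Subgroup.orderOf_coe]
    exact hx.2.2
  · rw [eq_top_iff, ← Subgroup.map_top_of_surjective π (QuotientGroup.mk'_surjective _),
      ← Subgroup.closure_closure_coe_preimage (k := sameCommutingClass D d ∪ {x}), MonoidHom.map_closure]
    refine Subgroup.closure_mono ?_
    rintro _ ⟨⟨u, hu⟩, h | h, rfl⟩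
    · exact Or.inl (htwin ⟨u, hu⟩ h)
    · simp only [Set.mem_singleton_iff] at h
      subst h
      exact Or.inr rfl

theorem exists_reduced {D : Set G} (hD : IsOddTranspositionSet D) {d x : G} (hd : d ∈ D)
    (hx : x ∈ oddPartners D d) :
    ∃ (S : Set (↥(Subgroup.closure (sameCommutingClass D d ∪ {x})) ⧸
        pCore 2 ↥(Subgroup.closure (sameCommutingClass D d ∪ {x})))) (d' x' : _),
      IsOddTranspositionSet S ∧ OneClass S ∧ d' ∈ S ∧ x' ∈ oddPartners S d' ∧
      Subgroup.closure (sameCommutingClass S d' ∪ {x'}) = ⊤ ∧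
      pCore 2 (↥(Subgroup.closure (sameCommutingClass D d ∪ {x})) ⧸
        pCore 2 ↥(Subgroup.closure (sameCommutingClass D d ∪ {x}))) = ⊥ := by
  obtain ⟨S, d', x', h1, h2, h3, h4, h5, h6, -⟩ := exists_reduced_maps hD hd hx
  exact ⟨S, d', x', h1, h2, h3, h4, h5, h6⟩

end CfsgLib.RootInv99
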