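import Cfsg.Agent.RootInvolutions.Components
import Cfsg.Agent.LocalP.Basic

/-!
Odd transpositions generated by the twins of a member `d` and one odd partner `x`, trivial 2-core:
the twins with `1` form a subgroup, and if there are two twins nothing else commutes with `d`.
-/

set_option autoImplicit false

namespace CfsgLib.RootInv99

open Cfsg CfsgLib.RootInv

variable {G : Type*} [Group G] {D : Set G}

section Odd

variable (hD : IsOddTranspositionSet D) {a b d e f x y u z : G}

include hD

theorem odd_or_commute (ha : a ∈ D) (hb : b ∈ D) : Commute a b ∨ Odd (orderOf (a * b)) := by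
  rcases hD.1.pair a ha b hb with h | h | ⟨h, -⟩
  · exact Or.inl h
  · exact Or.inr h
  · exact absurd h (hD.2 a ha b hb)

/-- A member commuting with a product of two commuting members commutes with both. -/
theorem commute_left_of_commute_mul (hy : y ∈ D) (he : e ∈ D) (hf : f ∈ D) (hef : Commute e f)
    (hne : e ≠ f) (hyz : Commute y (e * f)) : Commute y e := by
  rcases odd_or_commute hD hy he with h | ho
  · exact h
  have hz2 : (e * f) * (e * f) = 1 := by
    rw [show e * f * (e * f) = e * (f * e) * f by group, ← hef.eq,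
      show e * (e * f) * f = (e * e) * (f * f) by group, mul_self hD.1 he, mul_self hD.1 hf, one_mul]
  have hze : Commute (e * f) e := (Commute.refl e).mul_left hef.symm
  have hc : Commute (y * e) (e * f) := hyz.mul_left hze.symm
  have hyf : y * f = y * e * (e * f) := by
    rw [show y * e * (e * f) = y * (e * e) * f by group, mul_self hD.1 he, mul_one]
  rcases odd_or_commute hD hy hf with h | ho'
  · have h1 := (commute_iff hD.1 hy hf).mp h
    rw [hyf, hc.mul_pow, pow_two (e * f), hz2, mul_one, pow_two] at h1
    have h2 := eq_one_of_sq_of_odd h1 ho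
    exact (commute_iff hD.1 hy he).mpr (by rw [h2, one_pow])
  · exfalso
    have hz1 : e * f = (y * e)⁻¹ * (y * f) := by rw [hyf, inv_mul_cancel_left]
    have hcc : Commute (y * e)⁻¹ (y * f) := by
      rw [hyf]
      exact ((Commute.refl (y * e)).mul_right hc).inv_left
    have hodd : Odd (orderOf (e * f)) := by
      refine (Odd.mul ho ho').of_dvd_nat ?_
      rw [hz1]
      refine (hcc.orderOf_mul_dvd_mul_orderOf).trans ?_
      rw [orderOf_inv]
    exact hne (mul_left_cancel ((mul_self hD.1 he).trans (eq_one_of_sq_of_odd hz2 hodd).symm)).symm.symm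

theorem commute_right_of_commute_mul (hy : y ∈ D) (he : e ∈ D) (hf : f ∈ D) (hef : Commute e f)
    (hne : e ≠ f) (hyz : Commute y (e * f)) : Commute y f :=
  commute_left_of_commute_mul hD hy hf he hef.symm hne.symm (hef.eq ▸ hyz)

theorem mem_same_self (hd : d ∈ D) : d ∈ sameCommutingClass D d := ⟨hd, rfl⟩

omit hD in
theorem same_commute_iff (he : e ∈ sameCommutingClass D d) (hu : u ∈ D) :
    Commute u d ↔ Commute u e :=
  ⟨fun h => ((Set.ext_iff.mp he.2 u).mp ⟨hu, h.eq⟩).2, fun h => ((Set.ext_iff.mp he.2 u).mpr ⟨hu, h.eq⟩).2⟩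

omit hD in
theorem same_commute (hd : d ∈ D) (he : e ∈ sameCommutingClass D d) (hf : f ∈ sameCommutingClass D d) :
    Commute e f :=
  (same_commute_iff hf he.1).mp ((same_commute_iff he hd).mp (Commute.refl d)).symm

end Odd

section Main

variable [Finite G] (hD : IsOddTranspositionSet D) {d x : G} (hd : d ∈ D) (hx : x ∈ oddPartners D d)
  (hgen : Subgroup.closure (sameCommutingClass D d ∪ {x}) = ⊤) (hcore : pCore 2 G = ⊥)

include hD hd hx

theorem not_commute_twin {e : G} (he : e ∈ sameCommutingClass D d) : ¬ Commute x e := fun h =>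
  not_commute_of_odd hD.1 hd hx.1 hx.2.1.symm hx.2.2 ((same_commute_iff he hx.1).mpr h).symm

theorem not_commute_conj_twin {e : G} (he : e ∈ sameCommutingClass D d) :
    ¬ Commute (x * e * x) d := fun h => by
  have hxe := not_commute_twin hD hd hx he
  have ho := (odd_or_commute hD hx.1 he.1).resolve_left hxe
  have h1 := (same_commute_iff he (conj_self_mem hD.1 hx.1 he.1)).mp h
  have h4 := (commute_conj_iff_pow_four hD.1 hx.1 he.1).mp h1.symm
  exact hxe (eq_of_odd_of_pow_four hD.1 he.1 ho h4 ▸ Commute.refl x)

include hgen hcore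

/-- An element commuting with the twins and with the partner is trivial if it is an involution. -/
theorem eq_one_of_commute_generators {i : G} (hi : i * i = 1)
    (hE : ∀ e ∈ sameCommutingClass D d, Commute i e) (hix : Commute i x) : i = 1 := by
  have hc : i ∈ Subgroup.center G := by
    rw [Subgroup.mem_center_iff]
    intro g
    have hg : g ∈ Subgroup.centralizer ({i} : Set G) := by
      have hle : Subgroup.closure (sameCommutingClass D d ∪ {x}) ≤ Subgroup.centralizer ({i} : Set G) := by
        rw [Subgroup.closure_le]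
        rintro u (hu | rfl) <;>
          refine Subgroup.mem_centralizer_iff.mpr ?_ <;> rintro _ rfl
        · exact (hE u hu).eq
        · exact hix.eq
      exact hle (hgen ▸ Subgroup.mem_top g)
    exact (Subgroup.mem_centralizer_iff.mp hg i rfl).symm
  haveI : Fact (Nat.Prime 2) := ⟨Nat.prime_two⟩
  have hle : Subgroup.zpowers i ≤ Subgroup.center G := Subgroup.zpowers_le.mpr hc
  have hn : (Subgroup.zpowers i).Normal := ⟨fun n hn g => by
    rw [Subgroup.mem_center_iff.mp (hle hn) g, mul_inv_cancel_right]; exact hn⟩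
  have hp : IsPGroup 2 (Subgroup.zpowers i) := fun g => ⟨1, by
    obtain ⟨g, k, rfl⟩ := g
    apply Subtype.ext
    simp only [pow_one, SubgroupClass.coe_pow, OneMemClass.coe_one]
    rw [← zpow_natCast, ← zpow_mul, mul_comm, zpow_mul, zpow_natCast, pow_two, hi, one_zpow]⟩
  have := LocalP.le_pCore hn hp
  rw [hcore, le_bot_iff, Subgroup.zpowers_eq_bot] at this
  exact this

/-- The product of a twin and a member commuting with it, if no member, commutes with its conjugate
under the partner. -/
theorem commute_conj_twin_mul {e f : G} (he : e ∈ sameCommutingClass D d) (hfD : f ∈ D)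
    (hfd : Commute f d) (hne : e ≠ f) (hzD : e * f ∉ D) : Commute (e * f) (x * (e * f) * x) := by
  have hef : Commute e f := ((same_commute_iff he hfD).mp hfd).symm
  set z := e * f with hz
  have hxx : x * x = 1 := mul_self hD.1 hx.1
  have hz2 : z * z = 1 := by
    rw [hz, show e * f * (e * f) = e * (f * e) * f by group, ← hef.eq,
      show e * (e * f) * f = (e * e) * (f * f) by group, mul_self hD.1 he.1, mul_self hD.1 hfD, one_mul]
  have hzi : z⁻¹ = z := inv_eq_of_mul_eq_one_right hz2
  have hzxz : z * x * z ∈ D := by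
    have := hD.1.conj_mem x hx.1 z
    rwa [hzi] at this
  -- the conjugate of `x` and `x` have product `(x z)^2`
  have hpr : x * (z * x * z) = (x * z) ^ 2 := by simp only [pow_two, mul_assoc]
  rcases odd_or_commute hD hx.1 hzxz with hc | hodd
  · have h1 := (commute_iff hD.1 hx.1 hzxz).mp hc
    rw [hpr, ← pow_mul] at h1
    show z * (x * z * x) = x * z * x * z
    have h2 : (x * z * (x * z)) * (x * z * (x * z)) = 1 := by
      rw [← h1]; simp only [pow_succ, pow_zero, one_mul, mul_assoc]
    calc z * (x * z * x) = x * (x * z * (x * z)) * x * (x * x) := by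
          rw [hxx, mul_one, show x * (x * z * (x * z)) * x = (x * x) * (z * (x * z * x)) by group, hxx,
            one_mul]
      _ = x * (x * z * (x * z))⁻¹ * x * (x * x) := by rw [inv_eq_of_mul_eq_one_right h2]
      _ = x * z * x * z := by
          rw [hxx, mul_one]
          simp only [mul_inv_rev, hzi, inv_eq_of_mul_eq_one_right hxx]
          rw [show x * (z * x * (z * x)) * x = x * z * x * z * (x * x) by group, hxx, mul_one]
  · exfalso
    rw [hpr] at hodd
    set m := orderOf ((x * z) ^ 2) with hm
    obtain ⟨k, hk⟩ := hodd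
    have hpm : (x * z) ^ (2 * m) = 1 := by rw [pow_mul, hm, pow_orderOf_eq_one]
    set i := (x * z) ^ m with hi
    have hi2 : i * i = 1 := by rw [hi, ← pow_add, ← two_mul, hpm]
    have hix : Commute i x := by
      have h1 : x * (x * z) * x⁻¹ = (x * z)⁻¹ := by
        rw [mul_inv_rev, hzi, inv_eq_of_mul_eq_one_right hxx, ← mul_assoc x x, hxx, one_mul]
      have h2 : x * i * x⁻¹ = i⁻¹ := by rw [hi, ← conj_pow, h1, inv_pow]
      rw [inv_eq_of_mul_eq_one_right hi2] at h2
      exact (mul_inv_eq_iff_eq_mul.mp h2).symm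
    -- the reflection `i z` lies in `D`
    have hwz : i * z = (x * z) ^ k * x * ((x * z) ^ k)⁻¹ := by
      have hsc : ∀ j : ℕ, x * ((x * z) ^ j)⁻¹ = (x * z) ^ j * x := by
        intro j
        have h1 : x * (x * z)⁻¹ * x⁻¹ = x * z := by
          rw [mul_inv_rev, hzi, inv_eq_of_mul_eq_one_right hxx, mul_assoc, mul_assoc z, hxx, mul_one]
        have h2 := conj_pow (i := j) (a := x) (b := (x * z)⁻¹)
        rw [h1, inv_pow] at h2
        exact (eq_mul_inv_iff_mul_eq.mp h2).symm
      calc i * z = (x * z) ^ (k + k) * (x * (z * z)) := by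
            rw [hi, hk, pow_succ, two_mul]; simp only [mul_assoc]
        _ = (x * z) ^ k * ((x * z) ^ k * x) := by rw [hz2, mul_one, pow_add, mul_assoc]
        _ = (x * z) ^ k * (x * ((x * z) ^ k)⁻¹) := by rw [hsc k]
        _ = _ := (mul_assoc _ _ _).symm
    have hw : i * z ∈ D := hwz ▸ hD.1.conj_mem x hx.1 _
    have hiz : Commute i z := by
      have h1 : Commute i (x * z) := (Commute.refl (x * z)).pow_left m
      have h2 : z = x * (x * z) := by rw [← mul_assoc, hxx, one_mul]
      rw [h2]
      exact hix.mul_right h1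
    have hwc : Commute (i * z) z := hiz.mul_left (Commute.refl z)
    have hiE : ∀ g ∈ sameCommutingClass D d, Commute i g := by
      intro g hg
      have h1 : Commute (i * z) g := (same_commute_iff hg hw).mp
        ((same_commute_iff he hw).mpr (commute_left_of_commute_mul hD hw he.1 hfD hef hne hwc))
      have h2 : Commute z g := (same_commute hd he hg).mul_left ((same_commute_iff hg hfD).mp hfd)
      have h3 : i = i * z * z := by rw [mul_assoc, hz2, mul_one]
      rw [h3]
      exact h1.mul_left h2
    have hi1 := eq_one_of_commute_generators hD hd hx hgen hcore hi2 hiE hix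
    exact hzD (by rwa [hi1, one_mul] at hw)

/-- An involution commuting with a product of two twins permutes the twins, acting by conjugation. -/
theorem conj_twin_mem {e f g z' : G} (he : e ∈ sameCommutingClass D d)
    (hf : f ∈ sameCommutingClass D d) (hne : e ≠ f) (hz' : z' * z' = 1)
    (hc : Commute z' (e * f)) (hg : g ∈ sameCommutingClass D d) :
    z' * g * z' ∈ sameCommutingClass D d := by
  have hzi : z'⁻¹ = z' := inv_eq_of_mul_eq_one_right hz'
  have hmem : ∀ {u}, u ∈ D → z' * u * z' ∈ D := fun {u} hu => by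
    have := hD.1.conj_mem u hu z'; rwa [hzi] at this
  have hconj : ∀ {u v : G}, Commute u v → Commute (z' * u * z') (z' * v * z') := fun {u v} h => by
    show z' * u * z' * (z' * v * z') = z' * v * z' * (z' * u * z')
    rw [show z' * u * z' * (z' * v * z') = z' * u * (z' * z') * v * z' by group, hz',
      show z' * v * z' * (z' * u * z') = z' * v * (z' * z') * u * z' by group, hz', mul_one, mul_one,
      mul_assoc z' u, h.eq, ← mul_assoc]
  have hinv : ∀ u, z' * (z' * u * z') * z' = u := fun u => by
    rw [show z' * (z' * u * z') * z' = (z' * z') * u * (z' * z') by group, hz', one_mul, mul_one]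
  have hprod : z' * e * z' * (z' * f * z') = e * f := by
    rw [show z' * e * z' * (z' * f * z') = z' * (e * (z' * z') * f) * z' by group, hz', mul_one,
      hc.eq, mul_assoc, hz', mul_one]
  have hef : Commute e f := same_commute hd he hf
  have hE : z' * e * z' ∈ sameCommutingClass D d := by
    refine ⟨hmem he.1, Set.ext fun u => ⟨fun hu => ⟨hu.1, ?_⟩, fun hu => ⟨hu.1, ?_⟩⟩⟩
    · have h1 : Commute u (e * f) :=
        ((same_commute_iff he hu.1).mp hu.2).mul_right ((same_commute_iff hf hu.1).mp hu.2)
      rw [← hprod] at h1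
      refine (commute_left_of_commute_mul hD hu.1 (hmem he.1) (hmem hf.1) (hconj hef) ?_ h1).eq
      exact fun h => hne (by rw [← hinv e, h, hinv])
    · have hu2 : Commute u (z' * e * z') := hu.2
      have h1 : Commute (z' * u * z') e := by have := hconj hu2; rwa [hinv] at this
      have h2 : Commute (z' * u * z') (e * f) := h1.mul_right ((same_commute_iff hf (hmem hu.1)).mp
        ((same_commute_iff he (hmem hu.1)).mpr h1))
      have h3 := hconj h2
      rw [hinv, hc.eq, mul_assoc, hz', mul_one] at h3
      exact ((same_commute_iff he hu.1).mpr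
        (commute_left_of_commute_mul hD hu.1 he.1 hf.1 hef hne h3)).eq
  refine ⟨hmem hg.1, hE.2.trans (Set.ext fun u => ?_)⟩
  refine ⟨fun hu => ⟨hu.1, ?_⟩, fun hu => ⟨hu.1, ?_⟩⟩ <;> have hu2 : Commute u _ := hu.2
  · have h1 : Commute (z' * u * z') e := by have := hconj hu2; rwa [hinv] at this
    have := hconj ((same_commute_iff hg (hmem hu.1)).mp ((same_commute_iff he (hmem hu.1)).mpr h1))
    rwa [hinv] at this
  · have h1 : Commute (z' * u * z') g := by have := hconj hu2; rwa [hinv] at this
    have := hconj ((same_commute_iff he (hmem hu.1)).mp ((same_commute_iff hg (hmem hu.1)).mpr h1))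
    rwa [hinv] at this

/-- The product of two twins is a member. -/
theorem mul_mem_twins {e₀ f₀ : G} (he₀ : e₀ ∈ sameCommutingClass D d)
    (hf₀ : f₀ ∈ sameCommutingClass D d) (hne : e₀ ≠ f₀) : e₀ * f₀ ∈ D := by
  classical
  by_contra hnD
  set E := sameCommutingClass D d with hE
  have hdE : d ∈ E := mem_same_self hD hd
  have hxx : x * x = 1 := mul_self hD.1 hx.1
  have hxi : x⁻¹ = x := inv_self hD.1 hx.1
  let S : Set G := {g | ∃ e ∈ E, ∃ f ∈ E, g = e * f ∧ g ∉ D}
  set U := Subgroup.closure S with hU
  set U' := U.map (MulAut.conj x).toMonoidHom with hU'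
  have hmemU' : ∀ {g}, g ∈ U' ↔ x * g * x ∈ U := by
    intro g
    constructor
    · rintro ⟨u, hu, rfl⟩
      show x * (x * u * x⁻¹) * x ∈ U
      rw [hxi, show x * (x * u * x) * x = (x * x) * u * (x * x) by group, hxx, one_mul, mul_one]
      exact hu
    · intro h
      refine ⟨x * g * x, h, ?_⟩
      show x * (x * g * x) * x⁻¹ = g
      rw [hxi, show x * (x * g * x) * x = (x * x) * g * (x * x) by group, hxx, one_mul, mul_one]
  have hUS : ∀ {e f}, e ∈ E → f ∈ E → e * f ∉ D → e * f ∈ U := fun {e f} he hf hn =>
    Subgroup.subset_closure ⟨e, he, f, hf, rfl, hn⟩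
  have hUE : ∀ g ∈ U, ∀ e ∈ E, Commute g e := by
    intro g hg e he
    induction hg using Subgroup.closure_induction with
    | mem u hu =>
      obtain ⟨a, ha, b, hb, rfl, hab⟩ := hu
      exact (same_commute hd ha he).mul_left (same_commute hd hb he)
    | one => exact Commute.one_left _
    | mul a b _ _ ha hb => exact ha.mul_left hb
    | inv a _ ha => exact ha.inv_left
  have hUU : ∀ g ∈ U, ∀ h ∈ U, Commute g h := by
    intro g hg h hh
    induction hh using Subgroup.closure_induction with
    | mem u hu =>
      obtain ⟨a, ha, b, hb, rfl, hab⟩ := hu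
      exact (hUE g hg a ha).mul_right (hUE g hg b hb)
    | one => exact Commute.one_right _
    | mul a b _ _ ha hb => exact ha.mul_right hb
    | inv a _ ha => exact ha.inv_right
  have hU2 : ∀ g ∈ U, g * g = 1 := by
    intro g hg
    induction hg using Subgroup.closure_induction with
    | mem u hu =>
      obtain ⟨a, ha, b, hb, rfl, hab⟩ := hu
      rw [show a * b * (a * b) = a * (b * a) * b by group, ← (same_commute hd ha hb).eq,
        show a * (a * b) * b = (a * a) * (b * b) by group, mul_self hD.1 ha.1, mul_self hD.1 hb.1, one_mul]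
    | one => exact one_mul 1
    | mul a b ha' hb' ha hb =>
      rw [show a * b * (a * b) = a * (b * a) * b by group, ← (hUU a ha' b hb').eq,
        show a * (a * b) * b = (a * a) * (b * b) by group, ha, hb, one_mul]
    | inv a _ ha => rw [← mul_inv_rev, ha, inv_one]
  -- the conjugates of products of twins permute the twins
  have hperm : ∀ {a b g}, a ∈ E → b ∈ E → a * b ∉ D → g ∈ E →
      x * (a * b) * x * g * (x * (a * b) * x) ∈ E := by
    intro a b g ha hb hn hg
    by_cases hab : a = b
    · subst hab
      rwa [mul_self hD.1 ha.1, mul_one, hxx, one_mul, mul_one]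
    refine conj_twin_mem hD hd hx hgen hcore ha hb hab ?_
      (commute_conj_twin_mul hD hd hx hgen hcore ha hb.1
        (same_commute hd hb hdE) hab hn).symm hg
    rw [show x * (a * b) * x * (x * (a * b) * x) = x * (a * b) * (x * x) * (a * b) * x by group, hxx,
      mul_one, mul_assoc x, hU2 _ (hUS ha hb hn), mul_one, hxx]
  have hnormE : ∀ v ∈ U', ∀ g ∈ E, v * g * v⁻¹ ∈ E := by
    rintro _ ⟨u, hu, rfl⟩
    show ∀ g ∈ E, x * u * x⁻¹ * g * (x * u * x⁻¹)⁻¹ ∈ E
    rw [hxi]
    induction hu using Subgroup.closure_induction with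
    | mem w hw =>
      obtain ⟨a, ha, b, hb, rfl, hab⟩ := hw
      intro g hg
      have hi : (x * (a * b) * x)⁻¹ = x * (a * b) * x := inv_eq_of_mul_eq_one_right (by
        rw [show x * (a * b) * x * (x * (a * b) * x) = x * (a * b) * (x * x) * (a * b) * x by group, hxx,
          mul_one, mul_assoc x, hU2 _ (hUS ha hb hab), mul_one, hxx])
      rw [hi]
      exact hperm ha hb hab hg
    | one => intro g hg; rw [mul_one, hxx, inv_one, one_mul, mul_one]; exact hg
    | mul a b _ _ ha hb =>
      intro g hg
      have := ha _ (hb g hg)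
      rw [show x * (a * b) * x = x * a * x * (x * b * x) by
        rw [show x * a * x * (x * b * x) = x * a * (x * x) * b * x by group, hxx, mul_one]; group]
      rwa [mul_inv_rev, show x * a * x * (x * b * x) * g * ((x * b * x)⁻¹ * (x * a * x)⁻¹)
        = x * a * x * (x * b * x * g * (x * b * x)⁻¹) * (x * a * x)⁻¹ by group]
    | inv a _ ha =>
      intro g hg
      -- the conjugation is injective on the finite set of twins
      have hinj : Set.InjOn (fun g => x * a * x * g * (x * a * x)⁻¹) E :=
        fun p _ q _ h => mul_left_cancel (mul_right_cancel h)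
      obtain ⟨p, hp, hpg⟩ := (((Set.toFinite E).injOn_iff_bijOn_of_mapsTo (fun g hg => ha g hg)).mp hinj).surjOn hg
      have hi : x * a⁻¹ * x = (x * a * x)⁻¹ := by rw [mul_inv_rev, mul_inv_rev, hxi, mul_assoc]
      rw [hi, inv_inv, ← show x * a * x * p * (x * a * x)⁻¹ = g from hpg,
        show (x * a * x)⁻¹ * (x * a * x * p * (x * a * x)⁻¹) * (x * a * x) = p by group]
      exact hp
  have hnormU : ∀ v ∈ U', ∀ g ∈ U, v * g * v⁻¹ ∈ U := by
    intro v hv g hg
    induction hg using Subgroup.closure_induction with
    | mem w hw =>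
      obtain ⟨a, ha, b, hb, rfl, hab⟩ := hw
      rw [show v * (a * b) * v⁻¹ = v * a * v⁻¹ * (v * b * v⁻¹) by group]
      refine hUS (hnormE v hv a ha) (hnormE v hv b hb) fun h => hab ?_
      rw [show v * a * v⁻¹ * (v * b * v⁻¹) = v * (a * b) * v⁻¹ by group] at h
      have h2 := hD.1.conj_mem _ h v⁻¹
      rwa [show v⁻¹ * (v * (a * b) * v⁻¹) * v⁻¹⁻¹ = a * b by group] at h2
    | one => rw [mul_one, mul_inv_cancel]; exact one_mem _
    | mul a b _ _ ha hb => rw [show v * (a * b) * v⁻¹ = v * a * v⁻¹ * (v * b * v⁻¹) by group]; exact mul_mem ha hb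
    | inv a _ ha => rw [show v * a⁻¹ * v⁻¹ = (v * a * v⁻¹)⁻¹ by group]; exact inv_mem ha
  have hswap : ∀ g ∈ U, x * g * x ∈ U' := fun g hg => hmemU'.mpr (by
    rw [show x * (x * g * x) * x = (x * x) * g * (x * x) by group, hxx, one_mul, mul_one]; exact hg)
  haveI : Fact (Nat.Prime 2) := ⟨Nat.prime_two⟩
  have normal_of : ∀ N : Subgroup G, (∀ e ∈ E, ∀ g ∈ N, e * g * e ∈ N) → (∀ g ∈ N, x * g * x ∈ N) →
      (∀ g ∈ N, g * g = 1) → N = ⊥ := by
    intro N h1 h2 h3
    have hn : N.Normal := by
      refine ⟨fun n hn g => ?_⟩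
      have hg : g ∈ Subgroup.closure (E ∪ {x}) := by rw [hE, hgen]; exact Subgroup.mem_top g
      revert n
      induction hg using Subgroup.closure_induction with
      | mem w hw =>
        intro n hn
        rcases hw with hw | rfl
        · rw [inv_self hD.1 hw.1]; exact h1 w hw n hn
        · rw [hxi]; exact h2 n hn
      | one => intro n hn; rw [one_mul, inv_one, mul_one]; exact hn
      | mul a b _ _ ha hb =>
        intro n hn
        rw [show a * b * n * (a * b)⁻¹ = a * (b * n * b⁻¹) * a⁻¹ by group]
        exact ha _ (hb n hn)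
      | inv a _ ha =>
        intro n hn
        have hinj : Set.InjOn (fun g => a * g * a⁻¹) (N : Set G) :=
          fun p _ q _ h => mul_left_cancel (mul_right_cancel h)
        obtain ⟨p, hp, hpg⟩ := (((Set.toFinite (N : Set G)).injOn_iff_bijOn_of_mapsTo (fun g hg => ha g hg)).mp hinj).surjOn hn
        rw [inv_inv, ← show a * p * a⁻¹ = n from hpg, show a⁻¹ * (a * p * a⁻¹) * a = p by group]
        exact hp
    have hp : IsPGroup 2 N := fun g => ⟨1, Subtype.ext (by rw [pow_one, pow_two]; exact h3 g g.2)⟩
    exact le_bot_iff.mp (hcore ▸ LocalP.le_pCore hn hp)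
  have hW : U ⊓ U' = ⊥ := by
    refine normal_of _ (fun e he g hg => ?_) (fun g hg => ⟨hmemU'.mp hg.2, hswap g hg.1⟩)
      (fun g hg => hU2 g hg.1)
    rwa [← (hUE g hg.1 e he).eq, mul_assoc, mul_self hD.1 he.1, mul_one]
  have hcomm : ∀ u ∈ U, ∀ v ∈ U', Commute u v := by
    intro u hu v hv
    have h1 : u * v * u⁻¹ * v⁻¹ ∈ U := by
      rw [show u * v * u⁻¹ * v⁻¹ = u * (v * u⁻¹ * v⁻¹) by group]
      exact mul_mem hu (hnormU v hv _ (inv_mem hu))
    have h2 : u * v * u⁻¹ ∈ U' := by
      refine hmemU'.mpr ?_
      have := hnormU (x * u * x) (hswap u hu) (x * v * x) (hmemU'.mp hv)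
      have hi : (x * u * x)⁻¹ = x * u⁻¹ * x := by rw [mul_inv_rev, mul_inv_rev, hxi, mul_assoc]
      rwa [hi, show x * u * x * (x * v * x) * (x * u⁻¹ * x) = x * (u * (x * x) * v * (x * x) * u⁻¹) * x by group,
        hxx, mul_one, mul_one] at this
    have h3 : u * v * u⁻¹ * v⁻¹ ∈ U ⊓ U' :=
      Subgroup.mem_inf.mpr ⟨h1, mul_mem h2 (inv_mem hv)⟩
    rw [hW, Subgroup.mem_bot, mul_inv_eq_one, mul_inv_eq_iff_eq_mul] at h3
    exact h3
  set V := U ⊔ U' with hV
  have hVmem : ∀ {g}, g ∈ V → ∃ u ∈ U, ∃ v ∈ U', g = u * v := by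
    intro g hg
    rw [hV, ← SetLike.mem_coe, Subgroup.coe_mul_of_left_le_normalizer_right] at hg
    · obtain ⟨u, hu, v, hv, rfl⟩ := Set.mem_mul.mp hg
      exact ⟨u, hu, v, hv, rfl⟩
    · intro u hu
      rw [Subgroup.mem_normalizer_iff]
      intro v
      constructor
      · intro hv; rwa [(hcomm u hu v hv).eq, mul_inv_cancel_right]
      · intro hv
        have := hcomm u hu _ hv
        have h' : v = u * v * u⁻¹ := by
          have h5 : u * (u * v * u⁻¹) = u * v * u⁻¹ * u := this.eq
          rw [inv_mul_cancel_right] at h5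
          exact (mul_left_cancel h5).symm
        rwa [h']
  have hv2 : ∀ v ∈ U', v * v = 1 := by
    rintro _ ⟨w, hw, rfl⟩
    rw [← map_mul, hU2 w hw, map_one]
  have hconjx : ∀ w, (MulAut.conj x).toMonoidHom w = x * w * x := fun w => by
    show x * w * x⁻¹ = _
    rw [hxi]
  have hdconj : ∀ e ∈ E, ∀ v ∈ U', e * v * e ∈ V := by
    intro e he
    have hee : e * e = 1 := mul_self hD.1 he.1
    rintro _ ⟨w, hw, rfl⟩
    induction hw using Subgroup.closure_induction with
    | mem w hw =>
      obtain ⟨a, ha, b, hb, rfl, hab⟩ := hw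
      have hvU : (MulAut.conj x).toMonoidHom (a * b) ∈ U' := ⟨_, hUS ha hb hab, rfl⟩
      rw [hconjx] at hvU ⊢
      set v := x * (a * b) * x with hvdef
      rw [show e * v * e = e * (v * e * v⁻¹) * v by group]
      refine mul_mem ?_ (Subgroup.mem_sup_right hvU)
      by_cases hm : e * (v * e * v⁻¹) ∈ D
      swap
      · exact Subgroup.mem_sup_left (hUS he (hnormE v hvU e he) hm)
      exfalso
      have hvi : v⁻¹ = v := inv_eq_of_mul_eq_one_right (hv2 v hvU)
      set e' := v * e * v⁻¹ with he'
      set m := e * e' with hm'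
      have hl : Line D e e' := ⟨he.1, (hnormE v hvU e he).1, hm⟩
      have hcm : Commute e e' := Line.commute hD.1 hl
      have hev : v * e' * v = e := by
        rw [he', hvi, show v * (v * e * v) * v = (v * v) * e * (v * v) by group, hv2 v hvU, one_mul,
          mul_one]
      have hvm : v * m * v = m := by
        calc v * (e * e') * v = (v * e * v) * (v * e' * v) := by
              rw [show (v * e * v) * (v * e' * v) = v * e * (v * v) * e' * v by group, hv2 v hvU, mul_one]
              group
          _ = e' * e := by rw [hev, he', hvi]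
          _ = e * e' := hcm.symm.eq
      -- the conjugate of `m` commutes with `a * b`, hence with the twins
      have hmd : Commute m d :=
        (same_commute hd he hdE).mul_left (same_commute hd (hnormE v hvU e he) hdE)
      have hy := conj_self_mem hD.1 hx.1 hm
      have hyab : Commute (x * m * x) (a * b) := by
        show x * m * x * (a * b) = a * b * (x * m * x)
        have h5 : x * (v * m * v) * x = x * m * x := by rw [hvm]
        rw [hvdef, show x * (x * (a * b) * x * m * (x * (a * b) * x)) * x
          = (x * x) * (a * b) * (x * m * x) * (a * b) * (x * x) by group, hxx, one_mul, mul_one] at h5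
        calc x * m * x * (a * b) = a * b * (x * m * x) * (a * b) * (a * b) := by rw [h5]
          _ = a * b * (x * m * x) := by rw [mul_assoc _ (a * b) (a * b), hU2 _ (hUS ha hb hab), mul_one]
      have hne_ab : a ≠ b := fun h => by
        subst h
        have h1 : v = 1 := by rw [hvdef, mul_self hD.1 ha.1, mul_one, hxx]
        refine ne_one hD.1 hm ?_
        rw [hm', he', h1, inv_one, one_mul, mul_one, hee]
      have hyd : Commute (x * m * x) d := (same_commute_iff ha hy).mpr
        (commute_left_of_commute_mul hD hy ha.1 hb.1 (same_commute hd ha hb) hne_ab hyab)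
      have hxdx := conj_self_mem hD.1 hx.1 hd
      -- `m` is a twin
      have hmc : Commute m (x * d * x) := by
        have h6 := (Commute.conj_iff x).mpr hyd
        rwa [hxi, flip hD.1 hx.1] at h6
      exact not_commute_conj_twin hD hd hx hdE ((same_commute_iff he hxdx).mpr
        (commute_left_of_commute_mul hD hxdx he.1 (hnormE v hvU e he).1 hcm (Line.ne hD.1 hl) hmc.symm))
    | one =>
      rw [map_one, mul_one, hee]
      exact one_mem _
    | mul a b _ _ ha hb =>
      rw [map_mul, show ∀ p r : G, e * (p * r) * e = e * p * (e * e) * r * e from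
        fun p r => by rw [hee, mul_one]; group]
      simpa only [mul_assoc] using mul_mem ha hb
    | inv a _ ha =>
      have h7 := inv_mem ha
      rwa [mul_inv_rev, mul_inv_rev, inv_self hD.1 he.1, ← map_inv, ← mul_assoc] at h7
  have hV0 : V = ⊥ := by
    refine normal_of V (fun e he g hg => ?_) (fun g hg => ?_) (fun g hg => ?_) <;>
      obtain ⟨u, hu, v, hv, rfl⟩ := hVmem hg
    · rw [← mul_assoc, ← (hUE u hu e he).eq, mul_assoc u, mul_assoc]
      exact mul_mem (Subgroup.mem_sup_left hu) (hdconj e he v hv)
    · rw [show x * (u * v) * x = x * u * x * (x * v * x) * 1 by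
        rw [mul_one, show x * u * x * (x * v * x) = x * u * (x * x) * v * x by group, hxx, mul_one,
          mul_assoc x u]]
      rw [mul_one]
      exact mul_mem (Subgroup.mem_sup_right (hswap u hu)) (Subgroup.mem_sup_left (hmemU'.mp hv))
    · rw [show u * v * (u * v) = u * (v * u) * v by group, ← (hcomm u hu v hv).eq,
        show u * (u * v) * v = (u * u) * (v * v) by group, hU2 u hu, hv2 v hv, one_mul]
  have h1 : e₀ * f₀ = 1 := by
    have := (le_bot_iff.mpr hV0 : V ≤ ⊥) (Subgroup.mem_sup_left (hUS he₀ hf₀ hnD))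
    exact Subgroup.mem_bot.mp this
  exact hne ((eq_inv_of_mul_eq_one_left h1).trans (inv_self hD.1 hf₀.1))

/-- With two twins, every member commuting with `d` is a twin. -/
theorem mem_same_of_commute {e a : G} (he : e ∈ sameCommutingClass D d) (hed : e ≠ d) (ha : a ∈ D)
    (had : Commute a d) : a ∈ sameCommutingClass D d := by
  by_contra haE
  have hdE := mem_same_self hD hd
  have hxx : x * x = 1 := mul_self hD.1 hx.1
  have hde : d * e ∈ D := mul_mem_twins hD hd hx hgen hcore hdE he hed.symm
  have hcde : Commute d e := same_commute hd hdE he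
  have hE : ∀ g ∈ sameCommutingClass D d, Commute a g := fun g hg => (same_commute_iff hg ha).mp had
  have hne : ∀ g ∈ sameCommutingClass D d, g ≠ a := fun g hg h => haE (h ▸ hg)
  -- the third point is a twin, products with `a` are not members
  have hl : Line D d e := ⟨hd, he.1, hde⟩
  have hh : d * e ∈ sameCommutingClass D d := by
    refine ⟨hde, Set.ext fun w => ⟨fun hw => ⟨hw.1, ?_⟩, fun hw => ⟨hw.1, ?_⟩⟩⟩
    · exact ((show Commute w d from hw.2).mul_right ((same_commute_iff he hw.1).mp hw.2)).eq
    · exact (commute_left_of_commute_mul hD hw.1 hd he.1 hcde hed.symm hw.2).eq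
  have hnm : ∀ g ∈ sameCommutingClass D d, g * a ∉ D := by
    intro g hg h
    refine haE ⟨ha, Set.ext fun w => ⟨fun hw => ⟨hw.1, ?_⟩, fun hw => ⟨hw.1, ?_⟩⟩⟩
    · have h4 := (Line.pow_four_of_commute hD.1 (⟨hg.1, ha, h⟩ : Line D g a) hw.1
        ((same_commute_iff hg hw.1).mp hw.2))
      rcases odd_or_commute hD hw.1 ha with h1 | h1
      · exact h1.eq
      · rw [eq_of_odd_of_pow_four hD.1 ha h1 h4]
    · have hl' : Line D a g := ⟨ha, hg.1, (hE g hg).eq ▸ h⟩
      have h4 := hl'.pow_four_of_commute hD.1 hw.1 hw.2
      rcases odd_or_commute hD hw.1 hg.1 with h1 | h1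
      · exact ((same_commute_iff hg hw.1).mpr h1).eq
      · rw [eq_of_odd_of_pow_four hD.1 hg.1 h1 h4]
        exact ((same_commute hd hg hdE)).eq
  set u := d * a with hu
  set p := x * e * x with hp
  set z' := x * u * x with hz'
  set z'' := x * (d * e * a) * x with hz''
  have hcu : Commute u z' :=
    commute_conj_twin_mul hD hd hx hgen hcore hdE ha had (hne d hdE) (hnm d hdE)
  have hcv : Commute (d * e * a) z'' :=
    commute_conj_twin_mul hD hd hx hgen hcore hh ha had (hne _ hh) (hnm _ hh)
  have hu2 : u * u = 1 := by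
    rw [hu, show d * a * (d * a) = d * (a * d) * a by group, had.eq,
      show d * (d * a) * a = (d * d) * (a * a) by group, mul_self hD.1 hd, mul_self hD.1 ha, one_mul]
  have hz2 : z' * z' = 1 := by
    rw [hz', show x * u * x * (x * u * x) = x * u * (x * x) * u * x by group, hxx, mul_one, mul_assoc x,
      hu2, mul_one, hxx]
  have hzi : z'⁻¹ = z' := inv_eq_of_mul_eq_one_right hz2
  set d1 := z' * d * z' with hd1
  have hd1D : d1 ∈ D := by
    have := hD.1.conj_mem d hd z'
    rwa [hzi] at this
  have hd1d : Commute d1 d := by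
    refine commute_left_of_commute_mul hD hd1D hd ha had.symm (hne d hdE) ?_
    have hdu : Commute d u := (Commute.refl d).mul_right had.symm
    exact (hcu.symm.mul_left hdu).mul_left hcu.symm
  -- `d1` commutes with the conjugate of `d` under the twin of `x`
  have hpD : p ∈ D := conj_self_mem hD.1 hx.1 he.1
  have hpp : p * p = 1 := mul_self hD.1 hpD
  have hzp : z'' = p * z' := by
    rw [hz'', hp, hz', show x * e * x * (x * u * x) = x * e * (x * x) * u * x by group, hxx, mul_one, hu,
      hcde.eq]
    group
  have hcpz : Commute p z' := by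
    have h1 : Commute e u := hcde.symm.mul_right (hE e he).symm
    have := (Commute.conj_iff x).mpr h1
    rwa [inv_self hD.1 hx.1] at this
  have hd'd : Commute (z'' * d * z''⁻¹) d := by
    have hw : Commute (d * e * a) (d * e) := (Commute.refl (d * e)).mul_left (hE _ hh)
    have hgD := hD.1.conj_mem _ hde z''
    have h1 : Commute (z'' * (d * e) * z''⁻¹) (d * e * a) := by
      have h2 : z'' * (d * e * a) * z''⁻¹ = d * e * a := by rw [← hcv.eq, mul_inv_cancel_right]
      rw [← h2]
      exact (Commute.conj_iff z'').mpr hw.symm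
    have h3 : Commute (z'' * (d * e) * z''⁻¹) d := (same_commute_iff hh hgD).mpr
      (commute_left_of_commute_mul hD hgD hde ha (hE _ hh).symm (hne _ hh) h1)
    have h4 : Commute d (z'' * (d * e) * z''⁻¹) := h3.symm
    have h5 : Commute (z''⁻¹ * d * z'') (d * e) := by
      have := (Commute.conj_iff z''⁻¹).mpr h4
      rwa [show z''⁻¹ * (z'' * (d * e) * z''⁻¹) * z''⁻¹⁻¹ = d * e by group, inv_inv] at this
    have h6D : z''⁻¹ * d * z'' ∈ D := by
      have := hD.1.conj_mem d hd z''⁻¹
      rwa [inv_inv] at this
    have h6 := (Commute.conj_iff z'').mpr ((same_commute_iff hh h6D).mpr h5)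
    rw [show z'' * (z''⁻¹ * d * z'') * z''⁻¹ = d by group] at h6
    exact h6.symm
  have hpdp : Commute d1 (p * d * p) := by
    rw [hzp, mul_inv_rev, inv_eq_of_mul_eq_one_right hpp, hzi] at hd'd
    have h1 := (Commute.conj_iff p).mpr hd'd
    rw [inv_eq_of_mul_eq_one_right hpp,
      show p * (p * z' * d * (z' * p)) * p = (p * p) * (z' * d * z') * (p * p) by group, hpp, one_mul,
      mul_one] at h1
    exact h1
  have hd1p : Commute d1 p := by
    have hpd : ¬ Commute p d := not_commute_conj_twin hD hd hx he
    obtain ⟨k, hk⟩ := (odd_or_commute hD hpD hd).resolve_left hpd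
    have h2 : Commute d1 (p * d * (p * d)) := by
      rw [show p * d * (p * d) = p * d * p * d by group]
      exact hpdp.mul_right hd1d
    have h3 : Commute d1 (p * d) := by
      have h4 : (p * d * (p * d)) ^ (k + 1) = p * d := by
        rw [← pow_two, ← pow_mul, show 2 * (k + 1) = 2 * k + 1 + 1 by ring, ← hk, pow_succ,
          pow_orderOf_eq_one, one_mul]
      rw [← h4]
      exact h2.pow_right _
    have h5 : p = p * d * d := by rw [mul_assoc, mul_self hD.1 hd, mul_one]
    rw [h5]
    exact h3.mul_right hd1d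
  -- hence with both twin classes and with `x`
  have hd1x : Commute d1 x := by
    have hxd1 := conj_self_mem hD.1 hx.1 hd1D
    have h1 := (Commute.conj_iff x).mpr hd1p
    rw [inv_self hD.1 hx.1, hp, flip hD.1 hx.1] at h1
    have h2 := (Commute.conj_iff x).mpr ((same_commute_iff he hxd1).mpr h1)
    rw [inv_self hD.1 hx.1, flip hD.1 hx.1] at h2
    have h3 : Commute d1 (x * d * x * d) := h2.mul_right hd1d
    obtain ⟨k, hk⟩ := hx.2.2
    have h4 : Commute d1 (d * x) := by
      have h5 : Commute d1 (d * x * (d * x)) := by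
        have h6 : d * x * (d * x) = (x * d * x * d)⁻¹ := by
          simp only [mul_inv_rev, inv_self hD.1 hd, inv_self hD.1 hx.1, mul_assoc]
        rw [h6]
        exact h3.inv_right
      have h7 : (d * x * (d * x)) ^ (k + 1) = d * x := by
        rw [← pow_two, ← pow_mul, show 2 * (k + 1) = 2 * k + 1 + 1 by ring, ← hk, pow_succ,
          pow_orderOf_eq_one, one_mul]
      rw [← h7]
      exact h5.pow_right _
    have h8 := hd1d.mul_right h4
    rwa [cancel hD.1 hd] at h8
  exact ne_one hD.1 hd1D (eq_one_of_commute_generators hD hd hx hgen hcore (mul_self hD.1 hd1D)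
    (fun g hg => (same_commute_iff hg hd1D).mp hd1d) hd1x)

end Main

end CfsgLib.RootInv99
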