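import Cfsg.Agent.RootInvolutions.Reduce99
import Cfsg.Agent.RootInvolutions.Normal
import Cfsg.Agent.BaerSuzuki.Basic

/-!
Odd transpositions forming one class with a line, trivial 2-core: the twins of a member together
with `1` form a subgroup.
-/

set_option autoImplicit false

namespace CfsgLib.RootInv99

open Cfsg CfsgLib.RootInv

universe u

variable {G : Type u} [Group G] {D : Set G}

section Basics

variable (hD : IsOddTranspositionSet D) {a b c d e g x y : G}

include hD

theorem conj_mem_twins (he : e ∈ sameCommutingClass D d) (g : G) :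
    g * e * g⁻¹ ∈ sameCommutingClass D (g * d * g⁻¹) := by
  refine ⟨hD.1.conj_mem e he.1 g, Set.ext fun u => ?_⟩
  have key : ∀ v, Commute u (g * v * g⁻¹) ↔ Commute (g⁻¹ * u * g) v := fun v => by
    constructor <;> intro h
    · have h1 := (Commute.conj_iff g⁻¹).mpr h
      rwa [inv_inv, show g⁻¹ * (g * v * g⁻¹) * g = v by group] at h1
    · have h1 := (Commute.conj_iff g).mpr h
      rwa [show g * (g⁻¹ * u * g) * g⁻¹ = u by group] at h1
  have hu : u ∈ D → g⁻¹ * u * g ∈ D := fun h => by
    have := hD.1.conj_mem u h g⁻¹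
    rwa [inv_inv] at this
  exact ⟨fun h => ⟨h.1, ((key e).mpr ((same_commute_iff he (hu h.1)).mp ((key d).mp h.2))).eq⟩,
    fun h => ⟨h.1, ((key d).mpr ((same_commute_iff he (hu h.1)).mpr ((key e).mp h.2))).eq⟩⟩

theorem conj_mem_closure_twins {v : G} (hv : v ∈ Subgroup.closure (sameCommutingClass D d)) (g : G) :
    g * v * g⁻¹ ∈ Subgroup.closure (sameCommutingClass D (g * d * g⁻¹)) := by
  induction hv using Subgroup.closure_induction with
  | mem u hu => exact Subgroup.subset_closure (conj_mem_twins hD hu g)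
  | one => rw [mul_one, mul_inv_cancel]; exact one_mem _
  | mul p q _ _ hp hq =>
    rw [show g * (p * q) * g⁻¹ = g * p * g⁻¹ * (g * q * g⁻¹) by group]
    exact mul_mem hp hq
  | inv p _ hp =>
    rw [show g * p⁻¹ * g⁻¹ = (g * p * g⁻¹)⁻¹ by group]
    exact inv_mem hp

theorem commute_of_line (hl : Line D a b) (hc : c ∈ D) (h : Commute c a) : Commute c b := by
  have h4 := hl.pow_four_of_commute hD.1 hc h
  rcases odd_or_commute hD hc hl.2.1 with h1 | h1
  · exact h1
  · rw [eq_of_odd_of_pow_four hD.1 hl.2.1 h1 h4]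

theorem line_twin (hl : Line D a b) : b ∈ sameCommutingClass D a :=
  ⟨hl.2.1, Set.ext fun _ => ⟨fun h => ⟨h.1, (commute_of_line hD hl h.1 h.2).eq⟩,
    fun h => ⟨h.1, (commute_of_line hD (Line.symm hD.1 hl) h.1 h.2).eq⟩⟩⟩

omit hD in
theorem twins_eq (he : e ∈ sameCommutingClass D d) :
    sameCommutingClass D e = sameCommutingClass D d :=
  Set.ext fun _ => ⟨fun h => ⟨h.1, he.2.trans h.2⟩, fun h => ⟨h.1, he.2.symm.trans h.2⟩⟩

theorem mul_notMem_of_not_twin (he : e ∈ sameCommutingClass D d) (hc : c ∈ D)
    (hcE : c ∉ sameCommutingClass D d) : e * c ∉ D := fun h =>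
  hcE (twins_eq he ▸ line_twin hD ⟨he.1, hc, h⟩)

variable {v : G}

omit hD in
theorem commute_of_closure_twins (hv : v ∈ Subgroup.closure (sameCommutingClass D d)) (hc : c ∈ D)
    (hcd : Commute c d) : Commute c v := by
  induction hv using Subgroup.closure_induction with
  | mem u hu => exact (same_commute_iff hu hc).mp hcd
  | one => exact Commute.one_right _
  | mul p q _ _ hp hq => exact hp.mul_right hq
  | inv p _ hp => exact hp.inv_right

omit hD in
theorem commute_closure_twins (hd : d ∈ D) (hv : v ∈ Subgroup.closure (sameCommutingClass D d)) {w : G}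
    (hw : w ∈ Subgroup.closure (sameCommutingClass D d)) : Commute v w := by
  induction hv using Subgroup.closure_induction with
  | mem u hu => exact commute_of_closure_twins hw hu.1 ((same_commute hd hu ⟨hd, rfl⟩))
  | one => exact Commute.one_left _
  | mul p q _ _ hp hq => exact hp.mul_left hq
  | inv p _ hp => exact hp.inv_left

theorem sq_closure_twins (hd : d ∈ D) (hv : v ∈ Subgroup.closure (sameCommutingClass D d)) :
    v * v = 1 := by
  induction hv using Subgroup.closure_induction with
  | mem u hu => exact mul_self hD.1 hu.1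
  | one => exact one_mul 1
  | mul p q hp' hq' hp hq =>
    rw [show p * q * (p * q) = p * (q * p) * q by group, ← (commute_closure_twins hd hp' hq').eq,
      show p * (p * q) * q = (p * p) * (q * q) by group, hp, hq, one_mul]
  | inv p _ hp => rw [← mul_inv_rev, hp, inv_one]

omit hD in
/-- Commutation with the whole group `⟨E_d, x⟩`. -/
theorem commute_of_mem {i : G} (hE : ∀ e ∈ sameCommutingClass D d, Commute i e) (hix : Commute i x)
    {w : G} (hw : w ∈ Subgroup.closure (sameCommutingClass D d ∪ {x})) : Commute i w := by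
  induction hw using Subgroup.closure_induction with
  | mem u hu =>
    rcases hu with hu | rfl
    · exact hE u hu
    · exact hix
  | one => exact Commute.one_right _
  | mul p q _ _ hp hq => exact hp.mul_right hq
  | inv p _ hp => exact hp.inv_right

end Basics

section Invol

variable (hD : IsOddTranspositionSet D) {x v : G}

include hD

theorem bad_data [Finite G] (hx : x ∈ D) (hv : v * v = 1) (hvD : v ∉ D) (hv1 : v ≠ 1)
    (hbad : ¬ Commute v (x * v * x)) :
    ∃ (m : ℕ) (i : G), i = (x * v) ^ m ∧ (x * v) ^ (2 * m) = 1 ∧ i * v ∈ D ∧ i * i = 1 ∧ i ≠ 1 ∧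
      Commute i x ∧ Commute i v ∧ Commute (i * v) v := by
  have hxx : x * x = 1 := mul_self hD.1 hx
  have hvi : v⁻¹ = v := inv_eq_of_mul_eq_one_right hv
  have hvxv : v * x * v ∈ D := by
    have := hD.1.conj_mem x hx v
    rwa [hvi] at this
  have hpr : x * (v * x * v) = (x * v) ^ 2 := by simp only [pow_two, mul_assoc]
  rcases odd_or_commute hD hx hvxv with hc | hodd
  · exfalso
    refine hbad ?_
    have h1 := (commute_iff hD.1 hx hvxv).mp hc
    rw [hpr, ← pow_mul] at h1
    show v * (x * v * x) = x * v * x * v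
    have h2 : (x * v * (x * v)) * (x * v * (x * v)) = 1 := by
      rw [← h1]; simp only [pow_succ, pow_zero, one_mul, mul_assoc]
    calc v * (x * v * x) = x * (x * v * (x * v)) * x * (x * x) := by
          rw [hxx, mul_one, show x * (x * v * (x * v)) * x = (x * x) * (v * (x * v * x)) by group, hxx,
            one_mul]
      _ = x * (x * v * (x * v))⁻¹ * x * (x * x) := by rw [inv_eq_of_mul_eq_one_right h2]
      _ = x * v * x * v := by
          rw [hxx, mul_one]
          simp only [mul_inv_rev, hvi, inv_eq_of_mul_eq_one_right hxx]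
          rw [show x * (v * x * (v * x)) * x = x * v * x * v * (x * x) by group, hxx, mul_one]
  rw [hpr] at hodd
  set m := orderOf ((x * v) ^ 2) with hm
  obtain ⟨k, hk⟩ := hodd
  have hpm : (x * v) ^ (2 * m) = 1 := by rw [pow_mul, hm, pow_orderOf_eq_one]
  set i := (x * v) ^ m with hi
  have hi2 : i * i = 1 := by rw [hi, ← pow_add, ← two_mul, hpm]
  have hix : Commute i x := by
    have h1 : x * (x * v) * x⁻¹ = (x * v)⁻¹ := by
      rw [mul_inv_rev, hvi, inv_eq_of_mul_eq_one_right hxx, ← mul_assoc x x, hxx, one_mul]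
    have h2 : x * i * x⁻¹ = i⁻¹ := by rw [hi, ← conj_pow, h1, inv_pow]
    rw [inv_eq_of_mul_eq_one_right hi2] at h2
    exact (mul_inv_eq_iff_eq_mul.mp h2).symm
  have hwz : i * v = (x * v) ^ k * x * ((x * v) ^ k)⁻¹ := by
    have hsc : x * ((x * v) ^ k)⁻¹ = (x * v) ^ k * x := by
      have h1 : x * (x * v)⁻¹ * x⁻¹ = x * v := by
        rw [mul_inv_rev, hvi, inv_eq_of_mul_eq_one_right hxx, mul_assoc, mul_assoc v, hxx, mul_one]
      have h2 := conj_pow (i := k) (a := x) (b := (x * v)⁻¹)
      rw [h1, inv_pow] at h2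
      exact (eq_mul_inv_iff_mul_eq.mp h2).symm
    calc i * v = (x * v) ^ (k + k) * (x * (v * v)) := by
          rw [hi, hk, pow_succ, two_mul]; simp only [mul_assoc]
      _ = (x * v) ^ k * ((x * v) ^ k * x) := by rw [hv, mul_one, pow_add, mul_assoc]
      _ = (x * v) ^ k * (x * ((x * v) ^ k)⁻¹) := by rw [hsc]
      _ = _ := (mul_assoc _ _ _).symm
  have hw : i * v ∈ D := hwz ▸ hD.1.conj_mem x hx _
  have hiv : Commute i v := by
    have h1 : Commute i (x * v) := (Commute.refl (x * v)).pow_left m
    have h2 : v = x * (x * v) := by rw [← mul_assoc, hxx, one_mul]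
    rw [h2]
    exact hix.mul_right h1
  exact ⟨m, i, rfl, hpm, hw, hi2, fun h => hvD (by rw [h, one_mul] at hw; exact hw), hix, hiv,
    hiv.mul_left (Commute.refl v)⟩

end Invol

section Class

variable [Finite G] (hD : IsOddTranspositionSet D) (hone : OneClass D) {a b : G} (hl : Line D a b)
  {d x : G} (hd : d ∈ D) (hx : x ∈ oddPartners D d)

include hD hone hl hd hx

/-- For a member commuting with `d` outside the twins some product with a twin is not moved to a
commuting element by the partner. -/
theorem exists_good {c : G} (hc : c ∈ D) (hcx : ¬ Commute c x) :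
    ∃ g ∈ sameCommutingClass D d, ¬ Commute (g * c) (x * (g * c) * x) ∨ ¬ Commute c d := by
  by_cases hcd : Commute c d
  swap
  · exact ⟨d, mem_same_self hD hd, Or.inr hcd⟩
  obtain ⟨e, hde⟩ := exists_line hD.1 hone hl hd
  have he : e ∈ sameCommutingClass D d := line_twin hD hde
  have hl' : d * e ∈ sameCommutingClass D d := line_twin hD (Line.third hD.1 hde)
  by_contra hno
  push Not at hno
  have hxx : x * x = 1 := mul_self hD.1 hx.1
  -- a product moved to a commuting element moves `x` to a commuting member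
  have key : ∀ g ∈ sameCommutingClass D d, Commute (c * x * c) (g * x * g) := by
    intro g hg
    have hgc : Commute g c := ((same_commute_iff hg hc).mp hcd).symm
    have hz : Commute (g * c) (x * (g * c) * x) := (hno g hg).1
    have hzi : (g * c)⁻¹ = g * c := by rw [mul_inv_rev, inv_self hD.1 hc, inv_self hD.1 hg.1, hgc.eq]
    have h1 : Commute x (g * c * x * (g * c)) := by
      show x * (g * c * x * (g * c)) = g * c * x * (g * c) * x
      calc x * (g * c * x * (g * c)) = x * (g * c) * x * (g * c) := by simp only [mul_assoc]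
        _ = g * c * (x * (g * c) * x) := hz.eq.symm
        _ = g * c * x * (g * c) * x := by simp only [mul_assoc]
    have h2 := (Commute.conj_iff c).mpr h1
    rwa [inv_self hD.1 hc, show c * (g * c * x * (g * c)) * c = (c * g) * c * x * g * (c * c) by group,
      mul_self hD.1 hc, mul_one, ← hgc.eq, mul_assoc g c c, mul_self hD.1 hc, mul_one] at h2
  set l := d * e with hldef
  have h1 := key d (mem_same_self hD hd)
  have h2 := key e he
  have hxl : ¬ Commute x l := not_commute_twin hD hd hx hl'
  obtain ⟨k, hk⟩ := (odd_or_commute hD hx.1 hl'.1).resolve_left hxl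
  have hmid : d * ((x * (l * x * l)) ^ k * x) * d = l := by
    have h3 : (x * (l * x * l)) ^ k * x = l := by
      rw [show x * (l * x * l) = (x * l) ^ 2 by simp only [pow_two, mul_assoc], ← pow_mul]
      have h4 : (x * l) ^ (2 * k) = (x * l)⁻¹ :=
        eq_inv_of_mul_eq_one_left (by rw [← pow_succ, ← hk, pow_orderOf_eq_one])
      rw [h4, mul_inv_rev, inv_self hD.1 hl'.1, inv_self hD.1 hx.1, mul_assoc, hxx, mul_one]
    rw [h3, hldef, show d * (d * e) * d = (d * d) * (e * d) by group, mul_self hD.1 hd, one_mul,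
      (Line.commute hD.1 hde).eq]
  have hde' : d * (x * (l * x * l)) * d = d * x * d * (e * x * e) := by
    rw [hldef, show d * (x * (d * e * x * (d * e))) * d = d * x * d * e * x * (d * e * d) by group,
      show d * e * d = d * (e * d) by group, ← (Line.commute hD.1 hde).eq, ← mul_assoc d d e,
      mul_self hD.1 hd, one_mul, mul_assoc (d * x * d) e x, mul_assoc (d * x * d) (e * x) e]
  have hcl : Commute (c * x * c) l := by
    rw [← hmid]
    have h5 : d * ((x * (l * x * l)) ^ k * x) * d =
        (d * (x * (l * x * l)) * d⁻¹) ^ k * (d * x * d) := by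
      rw [conj_pow, inv_self hD.1 hd, show d * (x * (l * x * l)) ^ k * d * (d * x * d) =
        d * (x * (l * x * l)) ^ k * (d * d) * x * d by group, mul_self hD.1 hd, mul_one]
      group
    rw [h5, inv_self hD.1 hd, hde']
    exact ((h1.mul_right h2).pow_right k).mul_right h1
  have h6 := (Commute.conj_iff c).mpr hcl
  rw [inv_self hD.1 hc, flip hD.1 hc, show c * l * c = l by
    rw [((same_commute_iff hl' hc).mp hcd).eq, mul_assoc, mul_self hD.1 hc, mul_one]] at h6
  exact hxl h6

/-- Members of `⟨E_d, x⟩` commuting with `d` are twins of `d`. -/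
theorem same_of_mem {w : G} (hw : w ∈ D) (hwd : Commute w d)
    (hwX : w ∈ Subgroup.closure (sameCommutingClass D d ∪ {x})) : w ∈ sameCommutingClass D d := by
  classical
  have key : ∀ c ∈ D, Commute c d → Commute c w := by
    intro c hc hcd
    by_cases hcx : Commute c x
    · exact commute_of_mem (fun e he => (same_commute_iff he hc).mp hcd) hcx hwX
    by_cases hcE : c ∈ sameCommutingClass D d
    · exact ((same_commute_iff hcE hw).mp hwd).symm
    obtain ⟨g, hg, hgood | h⟩ := exists_good hD hone hl hd hx hc hcx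
    swap
    · exact absurd hcd h
    have hgc : Commute g c := ((same_commute_iff hg hc).mp hcd).symm
    have hne : g ≠ c := fun h => hcE (h ▸ hg)
    have hz2 : g * c * (g * c) = 1 := by
      rw [show g * c * (g * c) = g * (c * g) * c by group, ← hgc.eq,
        show g * (g * c) * c = (g * g) * (c * c) by group, mul_self hD.1 hg.1, mul_self hD.1 hc, one_mul]
    obtain ⟨m, i, -, -, hu, -, -, hix, -, huv⟩ :=
      bad_data hD hx.1 hz2 (mul_notMem_of_not_twin hD hg hc hcE)
        (fun h => hne ((eq_inv_of_mul_eq_one_left h).trans (inv_self hD.1 hc))) hgood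
    set u := i * (g * c) with hu'
    have hug : Commute u g := commute_left_of_commute_mul hD hu hg.1 hc hgc hne huv
    have huc : Commute u c := commute_right_of_commute_mul hD hu hg.1 hc hgc hne huv
    have hie : i = u * (g * c) := by rw [hu', mul_assoc, hz2, mul_one]
    have hiE : ∀ f ∈ sameCommutingClass D d, Commute i f := by
      intro f hf
      rw [hie]
      exact ((same_commute_iff hf hu).mp ((same_commute_iff hg hu).mpr hug)).mul_left
        ((same_commute hd hg hf).mul_left ((same_commute_iff hf hc).mp hcd))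
    have hwg : Commute w g := (same_commute_iff hg hw).mp hwd
    have hwi : Commute w i := (commute_of_mem hiE hix hwX).symm
    have huc' : u ≠ c := fun h => by
      have h1 : i = g := by
        rw [hie, h, hgc.eq, ← mul_assoc, mul_self hD.1 hc, one_mul]
      exact not_commute_twin hD hd hx hg (h1 ▸ hix.symm)
    have hwuc : Commute w (u * c) := by
      have h2 : u * c = i * g := by
        rw [hie, hgc.eq, mul_assoc u (c * g) g, mul_assoc c g g, mul_self hD.1 hg.1, mul_one]
      rw [h2]
      exact hwi.mul_right hwg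
    exact (commute_right_of_commute_mul hD hw hu hc huc huc' hwuc).symm
  have hsub : commutingMembers D d ⊆ commutingMembers D w := fun c hc =>
    ⟨hc.1, (key c hc.1 hc.2).eq⟩
  refine ⟨hw, Set.eq_of_subset_of_ncard_le hsub ?_ (Set.toFinite _)⟩
  obtain ⟨g, rfl⟩ := hone d hd w hw
  refine Set.ncard_le_ncard_of_injOn (fun u => g⁻¹ * u * g) (fun u hu => ?_) (fun p _ q _ h => ?_)
    (Set.toFinite _)
  · have h1 := (Commute.conj_iff g⁻¹).mpr (show Commute u (g * d * g⁻¹) from hu.2)
    rw [inv_inv, show g⁻¹ * (g * d * g⁻¹) * g = d by group] at h1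
    have h2 := hD.1.conj_mem u hu.1 g⁻¹
    rw [inv_inv] at h2
    exact ⟨h2, h1.eq⟩
  · exact mul_left_cancel (mul_right_cancel h)

omit hone hl in
/-- An element of `⟨E_d⟩` is trivial or a twin modulo the 2-core of `⟨E_d, x⟩`. -/
theorem image_twins {v : G} (hv : v ∈ Subgroup.closure (sameCommutingClass D d)) :
    ∃ hvX : v ∈ Subgroup.closure (sameCommutingClass D d ∪ {x}),
      ∃ (S : Set (↥(Subgroup.closure (sameCommutingClass D d ∪ {x})) ⧸
        pCore 2 ↥(Subgroup.closure (sameCommutingClass D d ∪ {x})))) (d' x' : _),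
      IsOddTranspositionSet S ∧ d' ∈ S ∧ x' ∈ oddPartners S d' ∧
      (∀ u : ↥(Subgroup.closure (sameCommutingClass D d ∪ {x})), (u : G) = x →
        QuotientGroup.mk' (pCore 2 _) u = x') ∧
      (∀ u : ↥(Subgroup.closure (sameCommutingClass D d ∪ {x})), (u : G) = d →
        QuotientGroup.mk' (pCore 2 _) u = d') ∧
      (QuotientGroup.mk' (pCore 2 ↥(Subgroup.closure (sameCommutingClass D d ∪ {x}))) ⟨v, hvX⟩ = 1 ∨
        QuotientGroup.mk' (pCore 2 ↥(Subgroup.closure (sameCommutingClass D d ∪ {x}))) ⟨v, hvX⟩ ∈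
          sameCommutingClass S d') := by
  obtain ⟨S, d', x', hS, -, hd', hx', hgen, hcore, hxe, hde, htw⟩ := exists_reduced_maps hD hd hx
  refine ⟨Subgroup.closure_mono Set.subset_union_left hv, S, d', x', hS, hd', hx', hxe, hde, ?_⟩
  have hall : ∀ (w : G) (hw : w ∈ Subgroup.closure (sameCommutingClass D d)),
      QuotientGroup.mk' (pCore 2 _) (⟨w, Subgroup.closure_mono Set.subset_union_left hw⟩ :
          ↥(Subgroup.closure (sameCommutingClass D d ∪ {x}))) = 1 ∨
      QuotientGroup.mk' (pCore 2 _) (⟨w, Subgroup.closure_mono Set.subset_union_left hw⟩ :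
          ↥(Subgroup.closure (sameCommutingClass D d ∪ {x}))) ∈ sameCommutingClass S d' := by
    intro w hw
    induction hw using Subgroup.closure_induction with
    | mem u hu => exact Or.inr (htw _ hu)
    | one => exact Or.inl (map_one _)
    | mul p q hp' hq' hp hq =>
      rw [show (⟨p * q, Subgroup.closure_mono Set.subset_union_left (mul_mem hp' hq')⟩ :
          ↥(Subgroup.closure (sameCommutingClass D d ∪ {x}))) =
        ⟨p, Subgroup.closure_mono Set.subset_union_left hp'⟩ *
          ⟨q, Subgroup.closure_mono Set.subset_union_left hq'⟩ from rfl, map_mul]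
      rcases hp with hp | hp
      · rw [hp, one_mul]; exact hq
      rcases hq with hq | hq
      · rw [hq, mul_one]; exact Or.inr hp
      by_cases hpq : QuotientGroup.mk' (pCore 2 _) (⟨p, Subgroup.closure_mono Set.subset_union_left hp'⟩ :
          ↥(Subgroup.closure (sameCommutingClass D d ∪ {x}))) = QuotientGroup.mk' (pCore 2 _)
          ⟨q, Subgroup.closure_mono Set.subset_union_left hq'⟩
      · rw [hpq, mul_self hS.1 hq.1]; exact Or.inl rfl
      have hm := mul_mem_twins hS hd' hx' hgen hcore hp hq hpq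
      refine Or.inr ?_
      rw [← twins_eq hp]
      exact line_twin hS (Line.third hS.1 ⟨hp.1, hq.1, hm⟩)
    | inv p hp' hp =>
      rw [show (⟨p⁻¹, Subgroup.closure_mono Set.subset_union_left (inv_mem hp')⟩ :
          ↥(Subgroup.closure (sameCommutingClass D d ∪ {x}))) =
        (⟨p, Subgroup.closure_mono Set.subset_union_left hp'⟩)⁻¹ from rfl, map_inv]
      rcases hp with hp | hp
      · rw [hp, inv_one]; exact Or.inl rfl
      · rw [inv_self hS.1 hp.1]; exact Or.inr hp
  exact hall v hv

omit hone hl in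
/-- An element of `⟨E_d⟩` moved by `x` to a commuting element lies in the 2-core of `⟨E_d, x⟩`. -/
theorem mem_core_of_commute {v : G} (hv : v ∈ Subgroup.closure (sameCommutingClass D d))
    (hgood : Commute v (x * v * x)) : ∃ hvX : v ∈ Subgroup.closure (sameCommutingClass D d ∪ {x}),
      (⟨v, hvX⟩ : ↥(Subgroup.closure (sameCommutingClass D d ∪ {x}))) ∈
        pCore 2 ↥(Subgroup.closure (sameCommutingClass D d ∪ {x})) := by
  obtain ⟨hvX, S, d', x', hS, hd', hx', hxe, -, h | h⟩ := image_twins hD hd hx hv
  · exact ⟨hvX, (QuotientGroup.eq_one_iff _).mp h⟩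
  exfalso
  set π := QuotientGroup.mk' (pCore 2 ↥(Subgroup.closure (sameCommutingClass D d ∪ {x})))
  let xX : ↥(Subgroup.closure (sameCommutingClass D d ∪ {x})) :=
    ⟨x, Subgroup.subset_closure (Or.inr rfl)⟩
  have hc : Commute (⟨v, hvX⟩ : ↥(Subgroup.closure (sameCommutingClass D d ∪ {x})))
      (xX * ⟨v, hvX⟩ * xX) := Subtype.ext hgood.eq
  have h1 := hc.map π
  rw [map_mul, map_mul, hxe xX rfl] at h1
  exact not_commute_conj_twin hS hd' hx' h ((same_commute_iff h
    (conj_self_mem hS.1 hx'.1 h.1)).mpr h1.symm)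

/-- An element of `⟨E_d⟩` not so moved differs by a twin from an element of `⟨E_d⟩` commuting
with `x`. -/
theorem exists_twin_of_bad {v : G} (hv : v ∈ Subgroup.closure (sameCommutingClass D d))
    (hvD : v ∉ D) (hbad : ¬ Commute v (x * v * x)) :
    ∃ w ∈ sameCommutingClass D d, w * v ≠ 1 ∧ Commute (w * v) x ∧ w * v ∉ D := by
  have hv1 : v ≠ 1 := fun h => hbad (h ▸ Commute.one_left _)
  obtain ⟨m, i, hi, hpm, hw, hi2, hi1, hix, hiv, hwv⟩ :=
    bad_data hD hx.1 (sq_closure_twins hD hd hv) hvD hv1 hbad
  obtain ⟨hvX, S, d', x', hS, hd', hx', hxe, hde, h | h⟩ := image_twins hD hd hx hv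
  · exfalso
    set π := QuotientGroup.mk' (pCore 2 ↥(Subgroup.closure (sameCommutingClass D d ∪ {x})))
    let xX : ↥(Subgroup.closure (sameCommutingClass D d ∪ {x})) :=
      ⟨x, Subgroup.subset_closure (Or.inr rfl)⟩
    -- `i * v` is congruent to `x ^ m`
    let iX : ↥(Subgroup.closure (sameCommutingClass D d ∪ {x})) := (xX * ⟨v, hvX⟩) ^ m
    have hic : (iX : G) = i := by simp [iX, xX, hi]
    have hπ : π (iX * ⟨v, hvX⟩) = x' ^ m := by
      rw [map_mul, map_pow, map_mul, h, mul_one, mul_one, hxe xX rfl]
    have hwm : i * v ∈ Subgroup.closure (sameCommutingClass D d ∪ {x}) := hic ▸ mul_mem iX.2 hvX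
    rcases odd_or_commute hD hw hx.1 with hc | ho
    · have h1 : Commute (i * v) x := hc
      have h2 : Commute v x := by
        have h3 : v = i * (i * v) := by rw [← mul_assoc, hi2, one_mul]
        rw [h3]
        exact hix.mul_left h1
      refine hbad ?_
      rw [← h2.eq, mul_assoc, mul_self hD.1 hx.1, mul_one]
    · -- the product is congruent to a power of `x`, so of 2-power order
      have h1 : π (iX * ⟨v, hvX⟩ * xX) = x' ^ (m + 1) := by rw [map_mul, hπ, hxe xX rfl, pow_succ]
      have hord : Odd (orderOf (iX * ⟨v, hvX⟩ * xX)) := by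
        rw [← Subgroup.orderOf_coe]
        simpa [hic, xX] using ho
      have h2 : π (iX * ⟨v, hvX⟩ * xX) = 1 := by
        refine eq_one_of_two_pow_of_odd (k := 1) ?_ (hord.of_dvd_nat (orderOf_map_dvd π _))
        rw [h1, pow_one, ← pow_mul, mul_comm, pow_mul, pow_two, mul_self hS.1 hx'.1, one_pow]
      obtain ⟨k, hk⟩ := LocalP.isPGroup_pCore (p := 2)
        (G := ↥(Subgroup.closure (sameCommutingClass D d ∪ {x}))) ⟨_, (QuotientGroup.eq_one_iff _).mp h2⟩
      have h3 := congrArg Subtype.val (eq_one_of_two_pow_of_odd (congrArg Subtype.val hk) hord)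
      simp only [Subgroup.coe_mul, hic, xX, OneMemClass.coe_one] at h3
      have h4 : i * v = x := (eq_inv_of_mul_eq_one_left h3).trans (inv_self hD.1 hx.1)
      refine hbad ?_
      have h5 : Commute v x := by
        have h6 : v = i * x := by rw [← h4, ← mul_assoc, hi2, one_mul]
        rw [h6]
        exact hix.mul_left (Commute.refl x)
      rw [← h5.eq, mul_assoc, mul_self hD.1 hx.1, mul_one]
  set π := QuotientGroup.mk' (pCore 2 ↥(Subgroup.closure (sameCommutingClass D d ∪ {x})))
  let xX : ↥(Subgroup.closure (sameCommutingClass D d ∪ {x})) :=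
    ⟨x, Subgroup.subset_closure (Or.inr rfl)⟩
  let dX : ↥(Subgroup.closure (sameCommutingClass D d ∪ {x})) :=
    ⟨d, Subgroup.subset_closure (Or.inl (mem_same_self hD hd))⟩
  let iX : ↥(Subgroup.closure (sameCommutingClass D d ∪ {x})) := (xX * ⟨v, hvX⟩) ^ m
  have hic : (iX : G) = i := by simp [iX, xX, hi]
  have hne : x' ≠ π ⟨v, hvX⟩ := fun he => hx'.2.1 (by
    by_contra hxd
    exact not_commute_twin hS hd' hx' h (he ▸ Commute.refl x'))
  have ho : Odd (orderOf (x' * π ⟨v, hvX⟩)) :=
    (odd_or_commute hS hx'.1 h.1).resolve_left (not_commute_twin hS hd' hx' h)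
  have hπi : π iX = 1 := by
    rw [map_pow, map_mul, hxe xX rfl]
    refine eq_one_of_sq_of_odd ?_ (ho.of_dvd_nat (orderOf_pow_dvd _))
    have h7 : (xX * ⟨v, hvX⟩) ^ (2 * m) = 1 := Subtype.ext (by simpa [xX] using hpm)
    have h8 := congrArg π h7
    rw [map_one, map_pow, map_mul, hxe xX rfl, two_mul, pow_add] at h8
    exact h8
  have hwX : i * v ∈ Subgroup.closure (sameCommutingClass D d ∪ {x}) := hic ▸ mul_mem iX.2 hvX
  have hwd : Commute (i * v) d := by
    rcases odd_or_commute hD hw hd with hc | ho'
    · exact hc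
    have hord : Odd (orderOf (iX * ⟨v, hvX⟩ * dX)) := by
      rw [← Subgroup.orderOf_coe]
      simpa [hic, dX] using ho'
    have h1 : π (iX * ⟨v, hvX⟩ * dX) * π (iX * ⟨v, hvX⟩ * dX) = 1 := by
      rw [map_mul, map_mul, hπi, one_mul, hde dX rfl]
      have hc : Commute (π ⟨v, hvX⟩) d' := same_commute hd' h (mem_same_self hS hd')
      rw [show π ⟨v, hvX⟩ * d' * (π ⟨v, hvX⟩ * d') = π ⟨v, hvX⟩ * (d' * π ⟨v, hvX⟩) * d' by group,
        ← hc.eq, show π ⟨v, hvX⟩ * (π ⟨v, hvX⟩ * d') * d' = (π ⟨v, hvX⟩ * π ⟨v, hvX⟩) * (d' * d') by group,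
        mul_self hS.1 h.1, mul_self hS.1 hd', one_mul]
    have h2 := eq_one_of_sq_of_odd h1 (hord.of_dvd_nat (orderOf_map_dvd π _))
    obtain ⟨k, hk⟩ := LocalP.isPGroup_pCore (p := 2)
      (G := ↥(Subgroup.closure (sameCommutingClass D d ∪ {x}))) ⟨_, (QuotientGroup.eq_one_iff _).mp h2⟩
    have h3 := congrArg Subtype.val (eq_one_of_two_pow_of_odd (congrArg Subtype.val hk) hord)
    simp only [Subgroup.coe_mul, hic, dX, OneMemClass.coe_one] at h3
    rw [(eq_inv_of_mul_eq_one_left h3).trans (inv_self hD.1 hd)]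
  have hwE := same_of_mem hD hone hl hd hx hw hwd hwX
  have hie : i * v * v = i := by rw [mul_assoc, sq_closure_twins hD hd hv, mul_one]
  refine ⟨i * v, hwE, by rwa [hie], by rwa [hie], fun hm => ?_⟩
  rw [hie] at hm
  have h1 : Commute i d := by
    rw [← hie]
    exact (same_commute hd hwE (mem_same_self hD hd)).mul_left
      (commute_of_closure_twins hv hd (Commute.refl d)).symm
  have h2 := same_of_mem hD hone hl hd hx hm h1 (hie ▸ mul_mem hwX hvX)
  exact not_commute_twin hD hd hx h2 hix.symm

/-- The elements of `⟨E_d⟩` so arising are moved by every partner to commuting elements. -/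
theorem good_everywhere {i : G} (hi : i ∈ Subgroup.closure (sameCommutingClass D d)) (hiD : i ∉ D)
    (hix : Commute i x) {y : G} (hy : y ∈ oddPartners D d) : Commute i (y * i * y) := by
  classical
  by_contra hbad
  obtain ⟨w, hw, hne, hwy, -⟩ := exists_twin_of_bad hD hone hl hd hy hi hiD hbad
  set j := w * i with hj
  have hjE : j ∈ Subgroup.closure (sameCommutingClass D d) := mul_mem (Subgroup.subset_closure hw) hi
  have hi2 := sq_closure_twins hD hd hi
  have hij : Commute i j := commute_closure_twins hd hi hjE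
  have hwij : w = j * i := by rw [hj, mul_assoc, hi2, mul_one]
  -- transport to the twins of `x` and of `y`
  have transport : ∀ {u p : G}, u ∈ Subgroup.closure (sameCommutingClass D d) → p ∈ oddPartners D d →
      Commute u p → u ∈ Subgroup.closure (sameCommutingClass D p) := by
    intro u p hu hp hup
    obtain ⟨g, hg, hge⟩ := Involution.conjugate_of_odd (hD.1.orderOf_eq d hd)
      (hD.1.orderOf_eq p hp.1) hp.2.2
    have h1 := conj_mem_closure_twins hD hu g
    rw [hge] at h1
    have hgu : Commute u g := by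
      refine commute_of_mem (D := D) (d := d) (x := p) (fun e he => ?_) hup ?_
      · exact commute_closure_twins hd hu (Subgroup.subset_closure he)
      · exact (Subgroup.closure_le _).mpr (by
          rintro q (rfl | rfl)
          · exact Subgroup.subset_closure (Or.inl (mem_same_self hD hd))
          · exact Subgroup.subset_closure (Or.inr rfl)) hg
    rwa [← hgu.eq, mul_inv_cancel_right] at h1
  have hix' := transport hi hx hix
  have hjy' := transport hjE hy hwy
  rcases odd_or_commute hD hx.1 hy.1 with hxy | hxy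
  · have h1 : Commute x w := by
      rw [hwij]
      exact (commute_of_closure_twins hjy' hx.1 hxy).mul_right hix.symm
    exact not_commute_twin hD hd hx hw h1
  have hne' : x ≠ y := fun h => not_commute_twin hD hd hx hw (by
    rw [hwij]
    exact (show Commute x j from h ▸ hwy.symm).mul_right hix.symm)
  have hyx : y ∈ oddPartners D x := ⟨hy.1, hne'.symm, hxy⟩
  set X := Subgroup.closure (sameCommutingClass D x ∪ {y}) with hX
  set π := QuotientGroup.mk' (pCore 2 ↥X) with hπ
  obtain ⟨S, x', y', hS, -, hx', hy', hgen, hcore, hye, hxe, htw⟩ := exists_reduced_maps hD hx.1 hyx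
  obtain ⟨hiX, -⟩ := image_twins hD hx.1 hyx hix'
  obtain ⟨g, hg, hge⟩ := Involution.conjugate_of_odd (hD.1.orderOf_eq x hx.1)
    (hD.1.orderOf_eq y hy.1) hxy
  have hgX : g ∈ X := (Subgroup.closure_le _).mpr (by
    rintro q (rfl | rfl)
    · exact Subgroup.subset_closure (Or.inl (mem_same_self hD hx.1))
    · exact Subgroup.subset_closure (Or.inr rfl)) hg
  have hj0 : g⁻¹ * j * g ∈ Subgroup.closure (sameCommutingClass D x) := by
    have h1 := conj_mem_closure_twins hD hjy' g⁻¹
    rwa [inv_inv, show g⁻¹ * y * g = x by rw [← hge]; group] at h1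
  have dich : ∀ (u : ↥X), (u : G) ∈ Subgroup.closure (sameCommutingClass D x) →
      π u = 1 ∨ π u ∈ sameCommutingClass S x' := by
    rintro ⟨u, huX⟩ hu
    change u ∈ Subgroup.closure (sameCommutingClass D x) at hu
    induction hu using Subgroup.closure_induction with
    | mem p hp => exact Or.inr (htw _ hp)
    | one => exact Or.inl (map_one π)
    | mul p q hp' hq' hp hq =>
      have hpX : p ∈ X := Subgroup.closure_mono Set.subset_union_left hp'
      have hqX : q ∈ X := Subgroup.closure_mono Set.subset_union_left hq'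
      rw [show (⟨p * q, huX⟩ : ↥X) = ⟨p, hpX⟩ * ⟨q, hqX⟩ from rfl, map_mul]
      rcases hp hpX with hp | hp
      · rw [hp, one_mul]; exact hq hqX
      rcases hq hqX with hq | hq
      · rw [hq, mul_one]; exact Or.inr hp
      by_cases hpq : π ⟨p, hpX⟩ = π ⟨q, hqX⟩
      · rw [hpq, mul_self hS.1 hq.1]; exact Or.inl rfl
      refine Or.inr ?_
      rw [← twins_eq hp]
      exact line_twin hS (Line.third hS.1 ⟨hp.1, hq.1, mul_mem_twins hS hx' hy' hgen hcore hp hq hpq⟩)
    | inv p hp' hp =>
      have hpX : p ∈ X := Subgroup.closure_mono Set.subset_union_left hp'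
      rw [show (⟨p⁻¹, huX⟩ : ↥X) = (⟨p, hpX⟩)⁻¹ from rfl, map_inv]
      rcases hp hpX with hp | hp
      · rw [hp, inv_one]; exact Or.inl rfl
      · rw [inv_self hS.1 hp.1]; exact Or.inr hp
  let iX : ↥X := ⟨i, hiX⟩
  let gX : ↥X := ⟨g, hgX⟩
  let j0 : ↥X := ⟨g⁻¹ * j * g, Subgroup.closure_mono Set.subset_union_left hj0⟩
  let jX : ↥X := gX * j0 * gX⁻¹
  have hjc : (jX : G) = j := by
    show g * (g⁻¹ * j * g) * g⁻¹ = j
    group
  let xX : ↥X := ⟨x, Subgroup.subset_closure (Or.inl (mem_same_self hD hx.1))⟩
  let yX : ↥X := ⟨y, Subgroup.subset_closure (Or.inr rfl)⟩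
  have hgy : gX * xX * gX⁻¹ = yX := Subtype.ext hge
  have hjd : π jX = 1 ∨ π jX ∈ sameCommutingClass S y' := by
    rcases dich j0 hj0 with h | h
    · exact Or.inl (by rw [map_mul, map_mul, h, mul_one, ← map_mul, mul_inv_cancel, map_one])
    · refine Or.inr ?_
      have h1 := conj_mem_twins hS h (π gX)
      rwa [← hxe xX rfl, ← map_inv, ← map_mul, ← map_mul, ← map_mul, ← map_mul, hgy, hye yX rfl] at h1
  have hcij : Commute (π iX) (π jX) :=
    (show Commute iX jX from Subtype.ext (by show i * (jX : G) = (jX : G) * i; rw [hjc]; exact hij.eq)).map π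
  -- the product is a member congruent to a twin of `x` or of `y`
  let wX : ↥X := jX * iX
  have hwc : (wX : G) = w := by show (jX : G) * i = w; rw [hjc, hwij]
  have hwsq : wX * wX = 1 := Subtype.ext (by
    show (wX : G) * wX = 1; rw [hwc]; exact mul_self hD.1 hw.1)
  have refl' : ∀ (p : ↥X), (p : G) ∈ D → Commute (π wX) (π p) → Commute w (p : G) := by
    intro p hp hc
    rcases odd_or_commute hD hw.1 hp with h | ho
    · exact h
    have hord : Odd (orderOf (wX * p)) := by
      rw [← Subgroup.orderOf_coe]; simpa [hwc] using ho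
    have hpp : p * p = 1 := Subtype.ext (mul_self hD.1 hp)
    have h1 : π (wX * p) * π (wX * p) = 1 := by
      rw [map_mul, show π wX * π p * (π wX * π p) = π wX * (π p * π wX) * π p by group, ← hc.eq,
        show π wX * (π wX * π p) * π p = (π wX * π wX) * (π p * π p) by group, ← map_mul, ← map_mul,
        hwsq, hpp, map_one, one_mul]
    obtain ⟨k, hk⟩ := LocalP.isPGroup_pCore (p := 2) (G := ↥X)
      ⟨_, (QuotientGroup.eq_one_iff _).mp (eq_one_of_sq_of_odd h1 (hord.of_dvd_nat (orderOf_map_dvd π _)))⟩
    have h3 := congrArg Subtype.val (eq_one_of_two_pow_of_odd (congrArg Subtype.val hk) hord)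
    simp only [Subgroup.coe_mul, hwc, OneMemClass.coe_one] at h3
    rw [(eq_inv_of_mul_eq_one_left h3).trans (inv_self hD.1 hp)]
  have hfin : Commute (π wX) x' ∨ Commute (π wX) y' := by
    rw [map_mul]
    rcases dich iX hix' with h | h
    · rcases hjd with h' | h'
      · left; rw [h, h', one_mul]; exact Commute.one_left _
      · right; rw [h, mul_one]; exact same_commute hy'.1 h' (mem_same_self hS hy'.1)
    · rcases hjd with h' | h'
      · left; rw [h', one_mul]; exact same_commute hx' h (mem_same_self hS hx')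
      · exfalso
        exact not_commute_of_odd hS.1 hx' hy'.1 hy'.2.1.symm hy'.2.2
          ((same_commute_iff h' hx').mpr ((same_commute_iff h h'.1).mpr hcij.symm).symm)
  rcases hfin with h | h
  · exact not_commute_twin hD hd hx hw (refl' xX hx.1 (by rwa [hxe xX rfl])).symm
  · exact not_commute_twin hD hd hy hw (refl' yX hy.1 (by rwa [hye yX rfl])).symm

omit hl in
/-- An element of `⟨E_d⟩` moved by every partner to a commuting element is trivial. -/
theorem eq_one_of_good {v : G} (hcore : pCore 2 G = ⊥)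
    (hv : v ∈ Subgroup.closure (sameCommutingClass D d))
    (hgood : ∀ y ∈ oddPartners D d, Commute v (y * v * y)) : v = 1 := by
  haveI : Fact (Nat.Prime 2) := ⟨Nat.prime_two⟩
  rw [← Subgroup.mem_bot, ← hcore]
  refine BaerSuzuki.mem_pCore v fun g => ?_
  have hv2 := sq_closure_twins hD hd hv
  have hdgD : g * d * g⁻¹ ∈ D := hD.1.conj_mem d hd g
  have hv' := conj_mem_closure_twins hD hv g
  rcases odd_or_commute hD hd hdgD with hc | ho
  · have hcv : Commute v (g * v * g⁻¹) := by
      refine Commute.symm ?_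
      generalize hu : g * v * g⁻¹ = u at hv' ⊢
      clear hu
      induction hv' using Subgroup.closure_induction with
      | mem p hp => exact commute_of_closure_twins hv hp.1 ((same_commute_iff hp hd).mp hc).symm
      | one => exact Commute.one_left _
      | mul p q _ _ hp hq => exact hp.mul_left hq
      | inv p _ hp => exact hp.inv_left
    have hall : ∀ p ∈ Subgroup.closure ({v, g * v * g⁻¹} : Set G),
        (∀ q ∈ Subgroup.closure ({v, g * v * g⁻¹} : Set G), Commute p q) ∧ p * p = 1 := by
      intro p hp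
      haveI := Subgroup.isMulCommutative_closure (k := ({v, g * v * g⁻¹} : Set G))
        (by rintro _ (rfl | rfl) _ (rfl | rfl) <;> first | rfl | exact hcv.eq | exact hcv.symm.eq)
      have hcomm : ∀ p ∈ Subgroup.closure ({v, g * v * g⁻¹} : Set G),
          ∀ q ∈ Subgroup.closure ({v, g * v * g⁻¹} : Set G), Commute p q := fun p hp q hq =>
        congrArg Subtype.val (IsMulCommutative.is_comm.comm
          (⟨p, hp⟩ : ↥(Subgroup.closure ({v, g * v * g⁻¹} : Set G))) ⟨q, hq⟩)
      refine ⟨hcomm p hp, ?_⟩
      induction hp using Subgroup.closure_induction with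
      | mem q hq =>
        rcases hq with rfl | rfl
        · exact hv2
        · rw [show g * v * g⁻¹ * (g * v * g⁻¹) = g * (v * v) * g⁻¹ by group, hv2, mul_one, mul_inv_cancel]
      | one => exact one_mul 1
      | mul q r hq' hr' hq hr =>
        rw [show q * r * (q * r) = q * (r * q) * r by group, ← (hcomm q hq' r hr').eq,
          show q * (q * r) * r = (q * q) * (r * r) by group, hq, hr, one_mul]
      | inv q _ hq => rw [← mul_inv_rev, hq, inv_one]
    exact fun w => ⟨1, Subtype.ext (by rw [pow_one, pow_two]; exact (hall w w.2).2)⟩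
  · by_cases hne : d = g * d * g⁻¹
    · have hcv : v ∈ Subgroup.closure (sameCommutingClass D d) ∧
          g * v * g⁻¹ ∈ Subgroup.closure (sameCommutingClass D d) := ⟨hv, by rwa [← hne] at hv'⟩
      have hle : Subgroup.closure ({v, g * v * g⁻¹} : Set G) ≤
          Subgroup.closure (sameCommutingClass D d) :=
        (Subgroup.closure_le _).mpr (Set.insert_subset hcv.1 (Set.singleton_subset_iff.mpr hcv.2))
      exact fun w => ⟨1, Subtype.ext (by
        rw [pow_one, pow_two]; exact sq_closure_twins hD hd (hle w.2))⟩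
    have hy : g * d * g⁻¹ ∈ oddPartners D d := ⟨hdgD, Ne.symm hne, ho⟩
    set y := g * d * g⁻¹ with hydef
    set X := Subgroup.closure (sameCommutingClass D d ∪ {y}) with hX
    obtain ⟨h, hh, hhe⟩ := Involution.conjugate_of_odd (hD.1.orderOf_eq d hd) (hD.1.orderOf_eq y hdgD) ho
    have hhX : h ∈ X := (Subgroup.closure_le _).mpr (by
      rintro q (rfl | rfl)
      · exact Subgroup.subset_closure (Or.inl (mem_same_self hD hd))
      · exact Subgroup.subset_closure (Or.inr rfl)) hh
    set k := h⁻¹ * g with hk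
    have hkd : k * d * k⁻¹ = d := by
      rw [hk, show h⁻¹ * g * d * (h⁻¹ * g)⁻¹ = h⁻¹ * (g * d * g⁻¹) * h by group, ← hydef, ← hhe]
      group
    have hv0 := conj_mem_closure_twins hD hv k
    rw [hkd] at hv0
    have hg0 : Commute (k * v * k⁻¹) (y * (k * v * k⁻¹) * y) := by
      have hp : k⁻¹ * y * k ∈ oddPartners D d := by
        rw [← mem_oddPartners_conj hD.1 (g := k), show k * (k⁻¹ * y * k) * k⁻¹ = y by group, hkd]
        exact hy
      have h1 := (Commute.conj_iff k).mpr (hgood _ hp)
      rwa [show k * (k⁻¹ * y * k * v * (k⁻¹ * y * k)) * k⁻¹ = y * (k * v * k⁻¹) * y by group] at h1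
    obtain ⟨hvX, hvN⟩ := mem_core_of_commute hD hd hy hv (hgood y hy)
    obtain ⟨hv0X, hv0N⟩ := mem_core_of_commute hD hd hy hv0 hg0
    set N := (pCore 2 ↥X).map X.subtype with hN
    have hN2 : IsPGroup 2 N := (LocalP.isPGroup_pCore (G := ↥X) (p := 2)).map _
    refine hN2.to_le ((Subgroup.closure_le _).mpr ?_)
    rintro p (rfl | rfl)
    · exact ⟨_, hvN, rfl⟩
    · refine ⟨_, (inferInstance : (pCore 2 ↥X).Normal).conj_mem _ hv0N ⟨h, hhX⟩, ?_⟩
      show h * (k * v * k⁻¹) * h⁻¹ = _
      rw [hk]
      group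

/-- The twins of `d` with `1` form a subgroup. -/
theorem mem_twins_of_mem_closure (hcore : pCore 2 G = ⊥) {v : G}
    (hv : v ∈ Subgroup.closure (sameCommutingClass D d)) (hv1 : v ≠ 1) :
    v ∈ sameCommutingClass D d := by
  have hvd : Commute v d := (commute_of_closure_twins hv hd (Commute.refl d)).symm
  have hvD : v ∈ D := by
    by_contra hvD
    by_cases hgood : ∀ y ∈ oddPartners D d, Commute v (y * v * y)
    · exact hv1 (eq_one_of_good hD hone hd hx hcore hv hgood)
    push Not at hgood
    obtain ⟨y, hy, hbad⟩ := hgood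
    obtain ⟨w, hw, hne, hwy, hwD⟩ := exists_twin_of_bad hD hone hl hd hy hv hvD hbad
    have hwv : w * v ∈ Subgroup.closure (sameCommutingClass D d) :=
      mul_mem (Subgroup.subset_closure hw) hv
    exact hne (eq_one_of_good hD hone hd hx hcore hwv fun z hz =>
      good_everywhere hD hone hl hd hy hwv hwD hwy hz)
  exact same_of_mem hD hone hl hd hx hvD hvd (Subgroup.closure_mono Set.subset_union_left hv)

end Class

end CfsgLib.RootInv99
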