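import Cfsg.Agent.Classical.Unitary.RankOne
import Cfsg.Agent.Classical.Unitary.Simple
import Cfsg.Agent.Classical.Unitary.Center
import Cfsg.Agent.RootInvolutions.Basic

/-!
`U₃(q)`, `q` even, is not generated by pairwise commuting involutions and one further involution.
-/

set_option autoImplicit false

namespace CfsgLib.RootInv99

open Cfsg CfsgLib.Unitary Matrix

variable {F : Type*} [Field F] [Fintype F] [CharP F 2] {q : ℕ}

/-- An involution of `SU₃(q)`, `q` even, is a transvection. -/
theorem exists_transv_of_involution (hF : Fintype.card F = q ^ 2) (t : ↥(SU 3 F q)) (ht : t * t = 1)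
    (h1 : t ≠ 1) :
    ∃ (v : Fin 3 → F) (c : F), hermForm 3 F q v v = 0 ∧ v ≠ 0 ∧ c ≠ 0 ∧
      ∀ y, sv t y = y + (c * hermForm 3 F q y v) • v := by
  set A := ((t : Matrix.SpecialLinearGroup (Fin 3) F) : Matrix (Fin 3) (Fin 3) F) with hA
  have hA2 : A * A = 1 := congrArg (fun s : ↥(SU 3 F q) =>
    ((s : Matrix.SpecialLinearGroup (Fin 3) F) : Matrix (Fin 3) (Fin 3) F)) ht
  have h2 : (1 : Matrix (Fin 3) (Fin 3) F) + 1 = 0 := by
    ext i j
    simp only [Matrix.add_apply, Matrix.zero_apply]
    exact CharTwo.add_self_eq_zero _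
  set N := A - 1 with hN
  have hNN : N * N = 0 := by
    rw [hN, sub_mul, mul_sub, mul_one, one_mul, hA2]
    have h3 : A + A = 0 := by rw [← mul_one A, ← mul_add, h2, mul_zero]
    rw [show (1 : Matrix (Fin 3) (Fin 3) F) - A - (A - 1) = (1 + 1) - (A + A) by abel, h2, h3, sub_zero]
  have hN0 : N ≠ 0 := fun h => h1 (Subtype.ext (Subtype.ext (by rw [← hA, sub_eq_zero.1 h]; rfl)))
  have hr : N.rank = 1 := by
    refine le_antisymm ?_ (Nat.one_le_iff_ne_zero.2 fun h0 => hN0 ?_)
    · have hle : LinearMap.range N.mulVecLin ≤ LinearMap.ker N.mulVecLin := by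
        rintro _ ⟨y, rfl⟩
        simp [Matrix.mulVecLin_apply, Matrix.mulVec_mulVec, hNN]
      have h3 := LinearMap.finrank_range_add_finrank_ker N.mulVecLin
      have h4 := Submodule.finrank_mono hle
      rw [Module.finrank_fintype_fun_eq_card, Fintype.card_fin] at h3
      rw [Matrix.rank]
      omega
    · rw [Matrix.rank, Submodule.finrank_eq_zero, LinearMap.range_eq_bot] at h0
      exact Matrix.toLin'.injective (by simpa [Matrix.toLin'_apply'] using h0)
  obtain ⟨v, c, hv, hc, hv0, hc0, rfl⟩ := exists_transvSU_of_rank_one hF t hr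
  exact ⟨v, c, hv, hv0, hc0, sv_transvSU hF hv hc⟩

variable (hF : Fintype.card F = q ^ 2)

include hF

omit [CharP F 2] in
/-- Some isotropic vector is not orthogonal to a given non-zero vector. -/
theorem exists_isotropic_not_orth {p v : Fin 3 → F} (hp : p ≠ 0) (hv : hermForm 3 F q v v = 0)
    (hv0 : v ≠ 0) : ∃ u, hermForm 3 F q u u = 0 ∧ hermForm 3 F q p u ≠ 0 := by
  by_cases hpp : hermForm 3 F q p p = 0
  · obtain ⟨f, -, hf, hpf⟩ := exists_partner hF (isNondeg_top hF) trivial hp hpp
    exact ⟨f, hf, by rw [hpf]; exact one_ne_zero⟩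
  obtain ⟨f, -, hf, hvf⟩ := exists_partner hF (isNondeg_top hF) trivial hv0 hv
  by_cases hpv : hermForm 3 F q p v = 0
  swap
  · exact ⟨v, hv, hpv⟩
  by_cases hpf : hermForm 3 F q p f = 0
  swap
  · exact ⟨f, hf, hpf⟩
  obtain ⟨a, ha⟩ := exists_trace_eq hF (a := -hermForm 3 F q p p)
    (by rw [neg_pow_q hF, herm_self_fixed hF])
  have hfv : hermForm 3 F q f v = 1 := by rw [herm_conj hF, hvf, one_pow]
  have hvp : hermForm 3 F q v p = 0 := herm_eq_zero_comm hF hpv
  have hfp : hermForm 3 F q f p = 0 := herm_eq_zero_comm hF hpf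
  refine ⟨a • v + f + p, ?_, ?_⟩
  · simp only [herm_add_left, herm_add_right hF, herm_smul_left, herm_smul_right, hv, hf, hvf, hfv, hpv,
      hpf, hvp, hfp]
    linear_combination ha
  · rw [herm_add_right hF, herm_add_right hF, herm_smul_right, hpv, hpf, mul_zero, zero_add, zero_add]
    exact hpp

/-- Commuting involutions fix the centres of each other. -/
theorem fix_of_commute {s t : ↥(SU 3 F q)} (ht : t * t = 1) (hst : Commute s t) {v : Fin 3 → F}
    {c : F} (hv : hermForm 3 F q v v = 0) (hv0 : v ≠ 0) (hc : c ≠ 0)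
    (hs : ∀ y, sv s y = y + (c * hermForm 3 F q y v) • v) : sv t v = v := by
  by_cases h1 : t = 1
  · rw [h1, sv_one]
  obtain ⟨w, d, hw, hw0, hd, htv⟩ := exists_transv_of_involution hF t ht h1
  obtain ⟨z, hz, hvz, hwz⟩ := exists_isotropic_not_perp hF hv0 hw0 hv hw
  have hzv : hermForm 3 F q z v ≠ 0 := fun h => hvz (herm_eq_zero_comm hF h)
  have hzw : hermForm 3 F q z w ≠ 0 := fun h => hwz (herm_eq_zero_comm hF h)
  have key := congrArg (fun g => sv g z) hst.eq
  simp only [sv_mul, htv, hs] at key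
  simp only [herm_add_left, herm_smul_left] at key
  rw [htv]
  by_cases hvw : hermForm 3 F q v w = 0
  · rw [hvw, mul_zero, zero_smul, add_zero]
  exfalso
  have hwv : hermForm 3 F q w v ≠ 0 := fun h => hvw (herm_eq_zero_comm hF h)
  have h := congrArg (fun y => hermForm 3 F q y v) key
  simp only [herm_add_left, herm_smul_left, hv] at h
  have h' : d * (c * hermForm 3 F q z v * hermForm 3 F q v w) * hermForm 3 F q w v = 0 := by
    linear_combination -h
  simp only [mul_eq_zero, hd, hc, hzv, hvw, hwv, or_self] at h'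

/-- `U₃(q)`, `q` even, is not generated by pairwise commuting involutions and one further one. -/
theorem psu_three_not_generated {E : Set (PSU 3 F q)} (hE : E.Nonempty) (hE2 : ∀ e ∈ E, e * e = 1)
    (hcomm : ∀ e ∈ E, ∀ f ∈ E, Commute e f) (hEne : ∀ e ∈ E, e ≠ 1) {x : PSU 3 F q} (hx : x * x = 1)
    (hgen : Subgroup.closure (E ∪ {x}) = ⊤) : False := by
  set Z := Subgroup.center ↥(SU 3 F q) with hZ
  set π := QuotientGroup.mk' Z with hπ
  have hZodd : Odd (Nat.card Z) := by
    rw [hZ, card_center_SU hF (by norm_num)]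
    exact Odd.of_dvd_nat (by decide : Odd 3) (Nat.gcd_dvd_left _ _)
  have hZz : ∀ z ∈ Z, z * z = 1 → z = 1 := fun z hz h =>
    RootInv.eq_one_of_sq_of_odd h (hZodd.of_dvd_nat (by
      rw [← Subgroup.orderOf_mk z hz]; exact orderOf_dvd_natCard _))
  -- involutions lift
  have lift : ∀ y : PSU 3 F q, y * y = 1 → ∃ s : ↥(SU 3 F q), s * s = 1 ∧ π s = y := by
    intro y hy
    obtain ⟨s, rfl⟩ := QuotientGroup.mk'_surjective Z y
    have hs : s * s ∈ Z := (QuotientGroup.eq_one_iff _).mp hy
    obtain ⟨k, hk⟩ := hZodd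
    have hp : (s * s) ^ Nat.card Z = 1 := by
      exact congrArg Subtype.val (pow_card_eq_one' (x := (⟨s * s, hs⟩ : Z)))
    refine ⟨s ^ Nat.card Z, by rw [← (Commute.refl s).mul_pow, hp], ?_⟩
    rw [map_pow, hk, pow_succ, pow_mul, pow_two, hy, one_pow, one_mul]
  have hcl : ∀ s t : ↥(SU 3 F q), s * s = 1 → t * t = 1 → Commute (π s) (π t) → Commute s t := by
    intro s t hs ht hc
    have hz : s * t * s * t ∈ Z := by
      refine (QuotientGroup.eq_one_iff _).mp ?_
      show π (s * t * s * t) = 1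
      rw [map_mul, map_mul, map_mul, hc.eq, mul_assoc (π t), ← map_mul π s s, hs, map_one, mul_one,
        ← map_mul, ht, map_one]
    have hsz : s * t * s * t * (s * t * s * t) = 1 := by
      have h3 : s * (s * t * s * t) = s * t * s * t * s := Subgroup.mem_center_iff.mp hz s
      have h4 : s * t * s * t = t * s * t * s := by
        calc s * t * s * t = s * (s * t * s * t) * s := by
              rw [h3, mul_assoc _ s s, hs, mul_one]
          _ = t * s * t * s := by
              rw [show s * (s * t * s * t) * s = s * s * (t * s * t * s) by group, hs, one_mul]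
      calc s * t * s * t * (s * t * s * t) = s * t * s * t * (t * s * t * s) := by rw [← h4]
        _ = s * t * s * (t * t) * s * t * s := by group
        _ = s * t * (s * s) * t * s := by rw [ht, mul_one]; group
        _ = 1 := by rw [hs, mul_one, mul_assoc s t t, ht, mul_one, hs]
    have h5 := hZz _ hz hsz
    have h6 : (s * t) * (s * t) = 1 := by rw [← h5]; group
    show s * t = t * s
    rw [← inv_eq_of_mul_eq_one_right h6, _root_.mul_inv_rev, inv_eq_of_mul_eq_one_right hs,
      inv_eq_of_mul_eq_one_right ht]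
  obtain ⟨e, he⟩ := hE
  obtain ⟨s, hs, hse⟩ := lift e (hE2 e he)
  have hs1 : s ≠ 1 := fun h => hEne e he (by rw [← hse, h, map_one])
  obtain ⟨v, c, hv, hv0, hc0, hsv⟩ := exists_transv_of_involution hF s hs hs1
  obtain ⟨tx, htx, htxe⟩ := lift x hx
  obtain ⟨w, d, hxv⟩ : ∃ (w : Fin 3 → F) (d : F), ∀ y, sv tx y = y + (d * hermForm 3 F q y w) • w := by
    by_cases h1 : tx = 1
    · exact ⟨0, 0, fun y => by simp [h1]⟩
    · obtain ⟨w, d, -, -, -, h⟩ := exists_transv_of_involution hF tx htx h1
      exact ⟨w, d, h⟩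
  -- a common fixed vector
  obtain ⟨p, hp0, hpv, hpw⟩ : ∃ p : Fin 3 → F, p ≠ 0 ∧ hermForm 3 F q p v = 0 ∧
      hermForm 3 F q p w = 0 := by
    let L : (Fin 3 → F) →ₗ[F] (Fin 2 → F) := LinearMap.pi fun i => hermLeft q (![v, w] i)
    have hlt : Module.finrank F (Fin 2 → F) < Module.finrank F (Fin 3 → F) := by simp
    obtain ⟨p, hp, hp0⟩ := Submodule.exists_mem_ne_zero_of_ne_bot (LinearMap.ker_ne_bot_of_finrank_lt (f := L) hlt)
    rw [LinearMap.mem_ker] at hp
    exact ⟨p, hp0, congrFun hp 0, congrFun hp 1⟩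
  have hfixE : ∀ g : ↥(SU 3 F q), g * g = 1 → π g ∈ E → sv g p = p := by
    intro g hg hgE
    have hgv := fix_of_commute hF hg (hcl s g hs hg (hse ▸ hcomm e he _ hgE)) hv hv0 hc0 hsv
    by_cases h1 : g = 1
    · rw [h1, sv_one]
    obtain ⟨u, a, hu, hu0, ha, hga⟩ := exists_transv_of_involution hF g hg h1
    rw [hga, add_eq_left, smul_eq_zero, or_iff_left hu0, mul_eq_zero, or_iff_right ha] at hgv
    -- `u` is orthogonal to `v`, hence a multiple of it
    obtain ⟨l, hl⟩ : ∃ l : F, u = l • v := by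
      obtain ⟨f, -, hf, hvf⟩ := exists_partner hF (isNondeg_top hF) trivial hv0 hv
      have hfv : hermForm 3 F q f v = 1 := by rw [herm_conj hF, hvf, one_pow]
      refine ⟨hermForm 3 F q u f, ?_⟩
      by_contra hne
      set r := u - hermForm 3 F q u f • v with hr
      have hr0 : r ≠ 0 := fun h => hne (sub_eq_zero.1 h)
      have hvu := herm_eq_zero_comm hF hgv
      have hrr : hermForm 3 F q r r = 0 := by
        simp only [hr, herm_sub_left, herm_sub_right hF, herm_smul_left, herm_smul_right, hu, hv, hgv, hvu]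
        ring
      have hrv : hermForm 3 F q r v = 0 := by
        simp only [hr, herm_sub_left, herm_smul_left, hv, hvu]; ring
      have hrf : hermForm 3 F q r f = 0 := by
        simp only [hr, herm_sub_left, herm_smul_left, hvf]; ring
      have hli : LinearIndependent F ![v, f, r] := by
        rw [Fintype.linearIndependent_iff]
        intro g hg
        simp only [Fin.sum_univ_three, Matrix.cons_val] at hg
        have e1 := congrArg (fun y => hermForm 3 F q y v) hg
        have e2 := congrArg (fun y => hermForm 3 F q y f) hg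
        simp only [herm_add_left, herm_smul_left, herm_zero_left, hv, hfv, hrv, hvf, hf, hrf, mul_zero,
          mul_one, add_zero, zero_add] at e1 e2
        rw [e1, e2, zero_smul, zero_smul, zero_add, zero_add, smul_eq_zero, or_iff_left hr0] at hg
        intro i; fin_cases i <;> assumption
      have hspan : Submodule.span F (Set.range ![v, f, r]) = ⊤ :=
        Submodule.eq_top_of_finrank_eq (by rw [finrank_span_eq_card hli]; simp)
      refine hr0 (herm_nondeg hF r fun y => ?_)
      obtain ⟨a, rfl⟩ := (Submodule.mem_span_range_iff_exists_fun F).1 (hspan ▸ Submodule.mem_top : y ∈ Submodule.span F (Set.range ![v, f, r]))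
      simp [Fin.sum_univ_three, herm_add_right hF, herm_smul_right, hrr, hrv, hrf]
    rw [hga, hl, herm_smul_right, hpv, mul_zero, mul_zero, zero_smul, add_zero]
  let P : Subgroup ↥(SU 3 F q) :=
    { carrier := {g | ∃ l : F, l ≠ 0 ∧ sv g p = l • p}
      one_mem' := ⟨1, one_ne_zero, by rw [sv_one, one_smul]⟩
      mul_mem' := fun {a b} ⟨l, hl, ha⟩ ⟨m, hm, hb⟩ => ⟨m * l, mul_ne_zero hm hl, by
        rw [sv_mul, hb, sv_smul, ha, smul_smul]⟩
      inv_mem' := fun {a} ⟨l, hl, ha⟩ => ⟨l⁻¹, inv_ne_zero hl, by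
        have h := congrArg (sv a⁻¹) ha
        rw [sv_inv_sv, sv_smul] at h
        exact (eq_inv_smul_iff₀ hl).mpr h.symm⟩ }
  have hZP : Z ≤ P := by
    intro z hz
    obtain ⟨l, hl⟩ := (mem_center_SU_iff hF (by norm_num) z).mp hz
    refine ⟨l, fun h0 => ?_, ?_⟩
    · have hd := z.1.2
      rw [hl, h0] at hd
      simp [Matrix.det_diagonal] at hd
    · show ((z : Matrix.SpecialLinearGroup (Fin 3) F) : Matrix (Fin 3) (Fin 3) F).mulVec p = _
      rw [hl]
      ext i
      simp [Matrix.mulVec_diagonal]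
  have htop : P.map π = ⊤ := by
    rw [eq_top_iff, ← hgen, Subgroup.closure_le]
    rintro y (hy | rfl)
    · obtain ⟨g, hg, rfl⟩ := lift y (hE2 y hy)
      exact ⟨g, ⟨1, one_ne_zero, by rw [one_smul, hfixE g hg hy]⟩, rfl⟩
    · exact ⟨tx, ⟨1, one_ne_zero, by rw [one_smul, hxv, hpw, mul_zero, zero_smul, add_zero]⟩, htxe⟩
  obtain ⟨u, hu, hpu⟩ := exists_isotropic_not_orth hF hp0 hv hv0
  obtain ⟨δ, hδ0, hδ⟩ := exists_trace_zero_ne_zero hF
  obtain ⟨g, hg, hgt⟩ : π (transvSU hF u δ hu hδ) ∈ P.map π := htop ▸ Subgroup.mem_top _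
  obtain ⟨l, -, hl⟩ : transvSU hF u δ hu hδ ∈ P := by
    have hz : g⁻¹ * transvSU hF u δ hu hδ ∈ Z := by
      refine (QuotientGroup.eq_one_iff _).mp ?_
      show π (g⁻¹ * transvSU hF u δ hu hδ) = 1
      rw [map_mul, map_inv, hgt, inv_mul_cancel]
    have := mul_mem hg (hZP hz)
    rwa [mul_inv_cancel_left] at this
  rw [sv_transvSU] at hl
  have h := congrArg (fun y => hermForm 3 F q y u) hl
  simp only [herm_add_left, herm_smul_left, hu, mul_zero, add_zero] at h
  have hl1 : l = 1 := by
    have h9 : (l - 1) * hermForm 3 F q p u = 0 := by linear_combination -h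
    exact sub_eq_zero.1 ((mul_eq_zero.1 h9).resolve_right hpu)
  rw [hl1, one_smul, add_eq_left, smul_eq_zero] at hl
  rcases hl with h0 | h0
  · exact mul_ne_zero hδ0 hpu h0
  · exact hpu (by rw [h0, herm_zero_right hF])

end CfsgLib.RootInv99
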